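import Cfsg.Agent.MaxSub.CSixSp.Setup

/-!
The action of the normaliser of a frame on the quotient by the signs, and the elements
`(1 + y) (1 + z) / 2`.
-/

set_option autoImplicit false
set_option linter.unusedSectionVars false
attribute [-instance] AddSubgroupClass.instZModModule

namespace Cfsg.Agent.MaxSub.CSixSp

variable {F : Type*} [Field F] {V : Type*} [AddCommGroup V] [Module F V]

namespace Frame

variable {B : LinearMap.BilinForm F V} (S : Frame B)

/-- The normaliser of `R`. -/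
def Nm : Subgroup (G F V) := Subgroup.normalizer (S.R : Set (G F V))

/-- The normaliser of `R` in the isometry group. -/
def N0 : Subgroup (G F V) := S.Nm ⊓ Sp B

lemma conj_mem {g : G F V} (hg : g ∈ S.Nm) {r : G F V} (hr : r ∈ S.R) : g * r * g⁻¹ ∈ S.R :=
  (Subgroup.mem_normalizer_iff.1 hg r).1 hr

lemma finite_R : Finite S.R := by
  refine Finite.of_surjective (fun p : S.E × Bool =>
    cond p.2 (S.rep p.1) ⟨-(S.rep p.1 : G F V), S.neg_mem (S.rep p.1).2⟩) fun r => ?_
  rcases S.cls_eq_iff.1 (S.cls_rep (S.cls r)) with h | h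
  · exact ⟨(S.cls r, true), Subtype.ext h.symm⟩
  · exact ⟨(S.cls r, false), Subtype.ext h.symm⟩

/-- Mapping `R` into itself by conjugation suffices to normalise it. -/
lemma mem_Nm_of_conj {g : G F V} (h : ∀ r ∈ S.R, g * r * g⁻¹ ∈ S.R) : g ∈ S.Nm := by
  rw [Nm, Subgroup.mem_normalizer_iff]
  intro r
  refine ⟨h r, fun hr => ?_⟩
  have := S.finite_R
  have hinj : Function.Injective fun x : S.R => (⟨g * x * g⁻¹, h x x.2⟩ : S.R) := fun x y e =>
    Subtype.ext (by simpa using congrArg Subtype.val e)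
  obtain ⟨x, hx⟩ := (Finite.injective_iff_surjective.1 hinj) ⟨_, hr⟩
  have : (x : G F V) = r := by simpa using congrArg Subtype.val hx
  exact this ▸ x.2

lemma R_le_Nm : S.R ≤ S.Nm := fun r hr => Subgroup.le_normalizer hr

lemma R_le_N0 : S.R ≤ S.N0 := fun _ hr => ⟨S.R_le_Nm hr, S.R_le_Sp hr⟩

/-- Conjugation of an element of `R`. -/
def conjR (g : S.Nm) (r : S.R) : S.R := ⟨g * r * (g : G F V)⁻¹, S.conj_mem g.2 r.2⟩

lemma conjR_mul (g h : S.Nm) (r : S.R) : S.conjR (g * h) r = S.conjR g (S.conjR h r) :=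
  Subtype.ext (by simp [conjR, mul_assoc])

lemma cls_conjR_congr (g : S.Nm) {a b : S.R} (h : S.cls a = S.cls b) :
    S.cls (S.conjR g a) = S.cls (S.conjR g b) := by
  rw [S.cls_eq_iff] at h ⊢
  rcases h with h | h
  · left; simp [conjR, h]
  · right; simp [conjR, h]

lemma conjR_map_mul (g : S.Nm) (a b : S.R) :
    S.conjR g (a * b) = S.conjR g a * S.conjR g b :=
  Subtype.ext (by simp [conjR, mul_assoc])

/-- The action on classes. -/
noncomputable def actFun (g : S.Nm) : S.E →+ S.E where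
  toFun x := S.cls (S.conjR g (S.rep x))
  map_zero' := by
    rw [S.cls_eq_zero]
    rcases S.cls_eq_zero.1 (S.cls_rep 0) with h | h
    · left; simp [conjR, h]
    · right; simp [conjR, h]
  map_add' x y := by
    rw [← S.cls_mul, ← conjR_map_mul]
    exact S.cls_conjR_congr g (by rw [S.cls_mul, S.cls_rep, S.cls_rep, S.cls_rep])

lemma actFun_cls (g : S.Nm) (a : S.R) : S.actFun g (S.cls a) = S.cls (S.conjR g a) :=
  S.cls_conjR_congr g (S.cls_rep _)

lemma actFun_mul (g h : S.Nm) (x : S.E) : S.actFun (g * h) x = S.actFun g (S.actFun h x) := by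
  obtain ⟨a, rfl⟩ := S.cls_surjective x
  simp only [S.actFun_cls, S.conjR_mul]

lemma actFun_one (x : S.E) : S.actFun 1 x = x := by
  obtain ⟨a, rfl⟩ := S.cls_surjective x
  rw [S.actFun_cls]
  exact congrArg S.cls (Subtype.ext (by simp [conjR]))

/-- The action of the normaliser on classes, as linear automorphisms. -/
noncomputable def act : S.Nm →* (S.E ≃ₗ[ZMod 2] S.E) where
  toFun g :=
    { AddMonoidHom.toZModLinearMap 2 (S.actFun g) with
      invFun := S.actFun g⁻¹
      left_inv := fun x => by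
        show S.actFun g⁻¹ (S.actFun g x) = x
        rw [← S.actFun_mul, inv_mul_cancel, S.actFun_one]
      right_inv := fun x => by
        show S.actFun g (S.actFun g⁻¹ x) = x
        rw [← S.actFun_mul, mul_inv_cancel, S.actFun_one] }
  map_one' := LinearEquiv.ext S.actFun_one
  map_mul' g h := LinearEquiv.ext (S.actFun_mul g h)

lemma act_cls {g : G F V} (hg : g ∈ S.Nm) (a : S.R) :
    S.act ⟨g, hg⟩ (S.cls a) = S.cls ⟨g * a * g⁻¹, S.conj_mem hg a.2⟩ :=
  S.actFun_cls ⟨g, hg⟩ a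

lemma act_cls' (g : S.Nm) (a : S.R) : S.act g (S.cls a) = S.cls (S.conjR g a) := S.actFun_cls g a

lemma qv_act (g : S.Nm) (x : S.E) : S.qv (S.act g x) = S.qv x := by
  obtain ⟨a, rfl⟩ := S.cls_surjective x
  rw [S.act_cls', S.qv_cls, S.qv_cls, sgn, sgn]
  classical
  refine if_congr ?_ rfl rfl
  show (g : G F V) * a * (g : G F V)⁻¹ * ((g : G F V) * a * (g : G F V)⁻¹) = 1 ↔ _
  rw [show (g : G F V) * a * (g : G F V)⁻¹ * ((g : G F V) * a * (g : G F V)⁻¹) =
    (g : G F V) * ((a : G F V) * a) * (g : G F V)⁻¹ by group, mul_inv_eq_one, mul_eq_left]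

/-- An isometry commuting up to sign with every element of `R` lies in `R`. -/
lemma mem_R_of_pm {g : G F V} (hg : g ∈ Sp B)
    (h : ∀ r ∈ S.R, g * r = r * g ∨ g * r = -(r * g)) : g ∈ S.R := by
  classical
  let χ : S.R → ZMod 2 := fun r => cm g r
  have hχ1 : ∀ r : S.R, χ r = 1 → g * r = -(r * g) := fun r hr =>
    (h r r.2).resolve_left fun e => by
      rw [show χ r = cm g r from rfl, cm_eq_zero.2 e] at hr
      exact zero_ne_one hr
  have hneg : ∀ r s : S.R, S.cls r = S.cls s → χ r = χ s := fun r s e => by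
    rcases S.cls_eq_iff.1 e with e | e
    · simp only [χ, e]
    · simp only [χ, e, cm_neg_right]
  have hmul : ∀ r s : S.R, χ (r * s) = χ r + χ s := by
    intro r s
    show cm g (r * s) = cm g r + cm g s
    rcases h r r.2 with h1 | h1 <;> rcases h s s.2 with h2 | h2
    · rw [cm_eq_zero.2 h1, cm_eq_zero.2 h2, add_zero, cm_eq_zero, ← mul_assoc, h1, mul_assoc, h2,
        mul_assoc]
    · have e2 : cm g (s : G F V) = 1 := by rw [cm, if_neg]; rw [h2]; exact fun e => S.ne_neg _ e.symm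
      have e : g * (r * s) = -(r * s * g) := by
        rw [← mul_assoc, h1, mul_assoc, h2, mul_neg, mul_assoc]
      rw [cm_eq_zero.2 h1, e2, zero_add, cm, if_neg]
      rw [e]; exact fun e => S.ne_neg _ e.symm
    · have e1 : cm g (r : G F V) = 1 := by rw [cm, if_neg]; rw [h1]; exact fun e => S.ne_neg _ e.symm
      have e : g * (r * s) = -(r * s * g) := by
        rw [← mul_assoc, h1, neg_mul, mul_assoc, h2, mul_assoc]
      rw [e1, cm_eq_zero.2 h2, add_zero, cm, if_neg]
      rw [e]; exact fun e => S.ne_neg _ e.symm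
    · have e1 : cm g (r : G F V) = 1 := by rw [cm, if_neg]; rw [h1]; exact fun e => S.ne_neg _ e.symm
      have e2 : cm g (s : G F V) = 1 := by rw [cm, if_neg]; rw [h2]; exact fun e => S.ne_neg _ e.symm
      rw [e1, e2, CharTwo.add_self_eq_zero, cm_eq_zero, ← mul_assoc, h1, neg_mul, mul_assoc, h2,
        mul_neg, neg_neg, mul_assoc]
  let L : S.E →+ ZMod 2 := AddMonoidHom.mk' (fun x => χ (S.rep x)) fun x y => by
    rw [← hmul]
    exact hneg _ _ (by rw [S.cls_mul, S.cls_rep, S.cls_rep, S.cls_rep])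
  obtain ⟨y, hy⟩ := (S.bf.toDual S.bf_nondegenerate).surjective (L.toZModLinearMap 2)
  have hy' : ∀ r : S.R, cm g (r : G F V) = cm (S.rep y : G F V) r := fun r => by
    have := congrArg (fun f : Module.Dual (ZMod 2) S.E => f (S.cls r)) hy
    simp only [LinearMap.BilinForm.toDual_def] at this
    have e1 : χ (S.rep (S.cls r)) = cm g (r : G F V) := hneg _ _ (S.cls_rep _)
    rw [← e1, show χ (S.rep (S.cls r)) = L (S.cls r) from rfl]
    rw [← S.cls_rep y, S.bf_cls] at this
    exact this.symm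
  have hc : ∀ r ∈ S.R, (S.rep y : G F V)⁻¹ * g * r = r * ((S.rep y : G F V)⁻¹ * g) := by
    intro r hr
    have h' : g * r * g⁻¹ = (S.rep y : G F V) * r * (S.rep y : G F V)⁻¹ := by
      have e := hy' ⟨r, hr⟩
      rcases h r hr with h1 | h1
      · rw [cm_eq_zero.2 h1, eq_comm, cm_eq_zero] at e
        rw [h1, e]; group
      · have e1 : cm g r = 1 := by rw [cm, if_neg]; rw [h1]; exact fun e => S.ne_neg _ e.symm
        rw [e1, eq_comm, S.cm_eq_one (S.rep y).2 hr] at e
        rw [h1, e, neg_mul, neg_mul, mul_inv_cancel_right, mul_inv_cancel_right]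
    calc (S.rep y : G F V)⁻¹ * g * r = (S.rep y : G F V)⁻¹ * (g * r * g⁻¹) * g := by group
      _ = r * ((S.rep y : G F V)⁻¹ * g) := by rw [h']; group
  rcases S.eq_sign_of_commute ((Sp B).mul_mem ((Sp B).inv_mem (S.R_le_Sp (S.rep y).2)) hg) hc with
    e | e
  · rw [inv_mul_eq_one] at e
    exact e ▸ (S.rep y).2
  · rw [inv_mul_eq_iff_eq_mul, mul_neg, mul_one] at e
    exact e ▸ S.neg_mem (S.rep y).2

lemma mem_R_of_act_eq_one {g : S.Nm} (hg : (g : G F V) ∈ Sp B) (h : S.act g = 1) :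
    (g : G F V) ∈ S.R := by
  refine S.mem_R_of_pm hg fun r hr => ?_
  have := congrArg (fun f : S.E ≃ₗ[ZMod 2] S.E => f (S.cls ⟨r, hr⟩)) h
  change S.act g (S.cls ⟨r, hr⟩) = S.cls ⟨r, hr⟩ at this
  rw [S.act_cls', S.cls_eq_iff] at this
  rcases this with e | e <;> simp only [conjR] at e
  · left
    conv_rhs => rw [e]
    group
  · right
    conv_rhs => rw [e]
    simp

/-! ### The elements `1 + y` -/

/-- A nonzero scalar as a unit. -/
noncomputable def sc (c : F) (hc : c ≠ 0) : G F V :=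
  Units.map (algebraMap F (Module.End F V)).toMonoidHom (Units.mk0 c hc)

lemma sc_comm (c : F) (hc : c ≠ 0) (g : G F V) : sc c hc * g = g * sc c hc :=
  Units.ext (Algebra.commutes c (g : Module.End F V))

/-- `1 + y` for `y² = -1`. -/
noncomputable def tq (h2 : (2 : F) ≠ 0) (y : G F V) (hy : y * y = -1) : G F V where
  val := 1 + (y : Module.End F V)
  inv := (2 : F)⁻¹ • (1 - (y : Module.End F V))
  val_inv := by
    have h : (y : Module.End F V) * y = -1 := by simpa using congrArg Units.val hy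
    rw [mul_smul_comm, add_mul, one_mul, mul_sub, mul_one, h, sub_neg_eq_add,
      show (1 - (y : Module.End F V)) + (y + 1) = (2 : F) • 1 by rw [two_smul]; abel, smul_smul,
      inv_mul_cancel₀ h2, one_smul]
  inv_val := by
    have h : (y : Module.End F V) * y = -1 := by simpa using congrArg Units.val hy
    rw [smul_mul_assoc, sub_mul, one_mul, mul_add, mul_one, h,
      show (1 + (y : Module.End F V)) - (y + -1) = (2 : F) • 1 by rw [two_smul]; abel, smul_smul,
      inv_mul_cancel₀ h2, one_smul]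

lemma tq_conj_of_comm (h2 : (2 : F) ≠ 0) {y r : G F V} (hy : y * y = -1) (h : y * r = r * y) :
    tq h2 y hy * r * (tq h2 y hy)⁻¹ = r := by
  rw [mul_inv_eq_iff_eq_mul]
  refine Units.ext ?_
  have h' : (y : Module.End F V) * r = r * y := by simpa using congrArg Units.val h
  show (1 + (y : Module.End F V)) * r = r * (1 + (y : Module.End F V))
  rw [add_mul, mul_add, one_mul, mul_one, h']

lemma tq_conj_of_anti (h2 : (2 : F) ≠ 0) {y r : G F V} (hy : y * y = -1) (h : y * r = -(r * y)) :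
    tq h2 y hy * r * (tq h2 y hy)⁻¹ = y * r := by
  rw [mul_inv_eq_iff_eq_mul]
  refine Units.ext ?_
  have h' : (y : Module.End F V) * r = -(r * y) := by simpa using congrArg Units.val h
  have h'' : (y : Module.End F V) * r * y = r := by
    rw [h', neg_mul, mul_assoc, show (y : Module.End F V) * y = -1 by
      simpa using congrArg Units.val hy, mul_neg, mul_one, neg_neg]
  show (1 + (y : Module.End F V)) * r = y * r * (1 + (y : Module.End F V))
  rw [add_mul, mul_add, one_mul, mul_one, h'', add_comm]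

lemma tq_mem_Nm {y : G F V} (hy : y ∈ S.R) (h : y * y = -1) : tq S.two_ne y h ∈ S.Nm := by
  refine S.mem_Nm_of_conj fun r hr => ?_
  rcases S.comm_sign hy hr with e | e
  · rwa [tq_conj_of_comm S.two_ne h e]
  · rw [tq_conj_of_anti S.two_ne h e]
    exact S.R.mul_mem hy hr

lemma act_tq {y : S.R} (h : (y : G F V) * y = -1) :
    S.act ⟨_, S.tq_mem_Nm y.2 h⟩ = S.QS'.T (S.cls y) := by
  refine LinearEquiv.ext fun x => ?_
  obtain ⟨a, rfl⟩ := S.cls_surjective x
  rw [S.act_cls, QS.T_apply]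
  show _ = S.cls a + S.bf (S.cls y) (S.cls a) • S.cls y
  rcases S.comm_sign y.2 a.2 with e | e
  · rw [S.bf_eq_zero.2 e, zero_smul, add_zero]
    exact congrArg S.cls (Subtype.ext (tq_conj_of_comm S.two_ne h e))
  · rw [S.bf_eq_one.2 e, one_smul, add_comm, ← S.cls_mul]
    exact congrArg S.cls (Subtype.ext (tq_conj_of_anti S.two_ne h e))

lemma tq_sim {y : G F V} (hy : y ∈ S.R) (h : y * y = -1) (u v : V) :
    B ((tq S.two_ne y h : Module.End F V) u) ((tq S.two_ne y h : Module.End F V) v) =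
      2 * B u v := by
  have h' : ∀ v, (y : Module.End F V) ((y : Module.End F V) v) = -v := fun v => by
    simpa using congrArg (fun g : G F V => (g : Module.End F V) v) h
  have hskew : B ((y : Module.End F V) u) v = -B u ((y : Module.End F V) v) := by
    rw [← S.isom y hy, h', map_neg, LinearMap.neg_apply]
  show B ((1 + (y : Module.End F V)) u) ((1 + (y : Module.End F V)) v) = _
  simp only [LinearMap.add_apply, Module.End.one_apply, map_add]
  rw [S.isom y hy, hskew]
  ring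

/-- The isometry `(1 + y) (1 + z) / 2`. -/
noncomputable def w {y z : S.R} (hy : (y : G F V) * y = -1) (hz : (z : G F V) * z = -1) : G F V :=
  sc (2 : F)⁻¹ (inv_ne_zero S.two_ne) * (tq S.two_ne y hy * tq S.two_ne z hz)

lemma w_val {y z : S.R} (hy : (y : G F V) * y = -1) (hz : (z : G F V) * z = -1) :
    (S.w hy hz : Module.End F V) = (2 : F)⁻¹ •
      ((1 + ((y : G F V) : Module.End F V)) * (1 + ((z : G F V) : Module.End F V))) := by
  rw [w, Units.val_mul, Units.val_mul]
  show algebraMap F (Module.End F V) (2 : F)⁻¹ * _ = _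
  rw [← Algebra.smul_def]
  rfl

lemma sc_mem_Nm (c : F) (hc : c ≠ 0) : sc c hc ∈ S.Nm :=
  S.mem_Nm_of_conj fun r hr => by rwa [sc_comm, mul_inv_cancel_right]

lemma w_mem {y z : S.R} (hy : (y : G F V) * y = -1) (hz : (z : G F V) * z = -1) :
    S.w hy hz ∈ S.N0 := by
  refine ⟨S.Nm.mul_mem (S.sc_mem_Nm _ _) (S.Nm.mul_mem (S.tq_mem_Nm y.2 hy) (S.tq_mem_Nm z.2 hz)),
    fun u v => ?_⟩
  rw [w, Units.val_mul, Units.val_mul]
  simp only [Module.End.mul_apply]
  show B (algebraMap F (Module.End F V) (2 : F)⁻¹ _) (algebraMap F (Module.End F V) (2 : F)⁻¹ _) = _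
  simp only [Module.algebraMap_end_apply, map_smul, LinearMap.smul_apply, smul_eq_mul,
    S.tq_sim y.2 hy, S.tq_sim z.2 hz]
  rw [show (2 : F)⁻¹ * ((2 : F)⁻¹ * (2 * (2 * B u v))) = (2⁻¹ * 2) * ((2⁻¹ * 2) * B u v) by ring,
    inv_mul_cancel₀ S.two_ne, one_mul, one_mul]

lemma act_w {y z : S.R} (hy : (y : G F V) * y = -1) (hz : (z : G F V) * z = -1) (x : S.E) :
    S.act ⟨S.w hy hz, (S.w_mem hy hz).1⟩ x = S.QS'.T (S.cls y) (S.QS'.T (S.cls z) x) := by
  have hsc : S.act ⟨_, S.sc_mem_Nm (2 : F)⁻¹ (inv_ne_zero S.two_ne)⟩ = 1 := by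
    refine LinearEquiv.ext fun x => ?_
    obtain ⟨a, rfl⟩ := S.cls_surjective x
    rw [S.act_cls]
    exact congrArg S.cls (Subtype.ext (by simp [sc_comm]))
  have e : (⟨S.w hy hz, (S.w_mem hy hz).1⟩ : S.Nm) =
      ⟨_, S.sc_mem_Nm (2 : F)⁻¹ (inv_ne_zero S.two_ne)⟩ *
        (⟨_, S.tq_mem_Nm y.2 hy⟩ * ⟨_, S.tq_mem_Nm z.2 hz⟩) := rfl
  rw [e, map_mul, map_mul, hsc, one_mul, S.act_tq, S.act_tq]
  rfl

lemma sq_of_qv_one {x : S.E} (h : S.qv x = 1) : (S.rep x : G F V) * S.rep x = -1 :=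
  (S.sgn_eq_one (S.rep x).2).1 h

lemma sq_of_qv_zero {x : S.E} (h : S.qv x = 0) : (S.rep x : G F V) * S.rep x = 1 :=
  sgn_eq_zero.1 h

/-- Products of two symmetries come from the normaliser in the isometry group. -/
lemma exists_act_TT {a b : S.E} (ha : S.qv a = 1) (hb : S.qv b = 1) :
    ∃ n : S.Nm, (n : G F V) ∈ Sp B ∧ S.act n = S.QS'.T a * S.QS'.T b := by
  refine ⟨⟨_, (S.w_mem (S.sq_of_qv_one ha) (S.sq_of_qv_one hb)).1⟩,
    (S.w_mem (S.sq_of_qv_one ha) (S.sq_of_qv_one hb)).2, LinearEquiv.ext fun x => ?_⟩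
  rw [S.act_w, S.cls_rep, S.cls_rep]
  rfl

/-- Transitivity on the classes with given square. -/
lemma exists_conj (hk : 2 ≤ S.k) {a b : S.R} (ha : S.cls a ≠ 0) (hb : S.cls b ≠ 0)
    (hab : S.qv (S.cls a) = S.qv (S.cls b)) :
    ∃ n ∈ S.N0, n * (a : G F V) * n⁻¹ = b ∨ n * (a : G F V) * n⁻¹ = -b := by
  let T : Set S.E := {x | ∃ n : S.Nm, (n : G F V) ∈ Sp B ∧ S.act n (S.cls a) = x}
  have hmem : S.cls b ∈ T := by
    refine S.QS'.orbit hk T ?_ (a := S.cls a) ⟨1, (Sp B).one_mem, by rw [map_one]; rfl⟩ ha hb hab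
    rintro x ⟨n, hn, rfl⟩ y z hy hz
    obtain ⟨m, hm, hmact⟩ := S.exists_act_TT hy hz
    refine ⟨m * n, (Sp B).mul_mem hm hn, ?_⟩
    rw [map_mul, hmact]
    rfl
  obtain ⟨n, hn, hn'⟩ := hmem
  rw [S.act_cls', S.cls_eq_iff] at hn'
  refine ⟨n, ⟨n.2, hn⟩, ?_⟩
  rcases hn' with e | e
  · exact Or.inl e.symm
  · right; rw [e, neg_neg]; rfl

end Frame

end Cfsg.Agent.MaxSub.CSixSp
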