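import Cfsg.Agent.MaxSub.CSixSp.Weak

/-!
Centralisers of nonsingular elements of a frame in a proper overgroup normalise the frame.
-/

set_option autoImplicit false
set_option linter.unusedSectionVars false
attribute [-instance] AddSubgroupClass.instZModModule

namespace Cfsg.Agent.MaxSub.CSixSp

variable {F : Type*} [Field F] {V : Type*} [AddCommGroup V] [Module F V]

namespace Pm

lemma of_neg_left {a b : G F V} (h : Pm (-a) b) : Pm a b :=
  Pm.trans (b := -a) (Or.inr (neg_neg a).symm) h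

lemma comm {a b : G F V} (h : Pm (a * b * a⁻¹) b) : Pm (b * a * b⁻¹) a := comm_of_conj h

lemma mul_right {a b : G F V} (h : Pm a b) (c : G F V) : Pm (a * c) (b * c) := h.mul (refl c)

end Pm

namespace Frame

variable {B : LinearMap.BilinForm F V} {S : Frame B} {M : Subgroup (G F V)}

namespace Over

/-- A singular element of the frame with prescribed commutation with `y` and `y₁`. -/
lemma exists_single (O : S.Over M) {y y₁ : G F V} (hy : y ∈ S.R) (hy₁ : y₁ ∈ S.R) (h0 : y ≠ 1)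
    (h0' : y ≠ -1) (h1 : y₁ ≠ 1) (h1' : y₁ ≠ -1) (hne : ¬ Pm y₁ y) (u v : ZMod 2) :
    ∃ c ∈ S.R, c * c = 1 ∧ c ≠ 1 ∧ c ≠ -1 ∧ (u = 0 → y * c = c * y) ∧ (u = 1 → y * c = -(c * y)) ∧
      (v = 0 → y₁ * c = c * y₁) ∧ (v = 1 → y₁ * c = -(c * y₁)) := by
  have hcy : S.cls ⟨y, hy⟩ ≠ 0 := fun e => (S.cls_eq_zero.1 e).elim h0 h0'
  have hcy₁ : S.cls ⟨y₁, hy₁⟩ ≠ 0 := fun e => (S.cls_eq_zero.1 e).elim h1 h1'
  have hd : S.cls ⟨y, hy⟩ ≠ S.cls ⟨y₁, hy₁⟩ := fun e => hne (S.cls_eq_iff.1 e)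
  have hk := O.hk
  -- a nonzero singular vector with these values
  obtain ⟨f, hf0, hfu, hfv, hfq⟩ : ∃ f, f ≠ 0 ∧ S.bf (S.cls ⟨y, hy⟩) f = u ∧
      S.bf (S.cls ⟨y₁, hy₁⟩) f = v ∧ S.qv f = 0 := by
    obtain ⟨f, hfu, hfv, hfq⟩ := S.QS'.exists_vals_q (show 3 ≤ S.QS'.k from hk) hcy hcy₁ hd u v 0
    by_cases hf0 : f = 0
    · subst hf0
      rw [map_zero] at hfu hfv
      subst hfu hfv
      have h4 := S.QS'.le_finrank_perp₂ (S.cls ⟨y, hy⟩) (S.cls ⟨y₁, hy₁⟩)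
      have hk' : 3 ≤ S.QS'.k := hk
      obtain ⟨p, hp, hp0⟩ :=
        QS.exists_ne_zero_mem (U := S.QS'.perp (S.cls ⟨y, hy⟩) ⊓ S.QS'.perp (S.cls ⟨y₁, hy₁⟩))
          (by omega)
      rcases zmod2_cases (S.qv p) with hq | hq
      · exact ⟨p, hp0, S.QS'.mem_perp.1 hp.1, S.QS'.mem_perp.1 hp.2, hq⟩
      have h5 := S.QS'.finrank_inf_perp
        (S.QS'.perp (S.cls ⟨y, hy⟩) ⊓ S.QS'.perp (S.cls ⟨y₁, hy₁⟩)) p
      obtain ⟨r, ⟨⟨r1, r2⟩, r3⟩, hr0, hrp⟩ := QS.exists_mem_ne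
        (U := S.QS'.perp (S.cls ⟨y, hy⟩) ⊓ S.QS'.perp (S.cls ⟨y₁, hy₁⟩) ⊓ S.QS'.perp p)
        (by omega) p
      rcases zmod2_cases (S.qv r) with hr | hr
      · exact ⟨r, hr0, S.QS'.mem_perp.1 r1, S.QS'.mem_perp.1 r2, hr⟩
      have hP : p + r ∈ S.QS'.perp (S.cls ⟨y, hy⟩) ⊓ S.QS'.perp (S.cls ⟨y₁, hy₁⟩) :=
        Submodule.add_mem _ hp ⟨r1, r2⟩
      refine ⟨p + r, fun h => hrp ?_, S.QS'.mem_perp.1 hP.1, S.QS'.mem_perp.1 hP.2, ?_⟩
      · rw [← QS.add_cancel_left' p r, h, add_zero]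
      · rw [S.qv_add, hq, hr, show S.bf p r = 0 from S.QS'.mem_perp.1 r3]
        decide
    · exact ⟨f, hf0, hfu, hfv, hfq⟩
  have hcls : S.cls (S.rep f) ≠ 0 := by rw [S.cls_rep]; exact hf0
  rw [← S.cls_rep f] at hfu hfv
  refine ⟨S.rep f, (S.rep f).2, S.sq_of_qv_zero hfq, fun e => hcls (S.cls_eq_zero.2 (Or.inl e)),
    fun e => hcls (S.cls_eq_zero.2 (Or.inr e)), ?_, ?_, ?_, ?_⟩ <;> rintro rfl
  exacts [S.bf_eq_zero.1 hfu, S.bf_eq_one.1 hfu, S.bf_eq_zero.1 hfv, S.bf_eq_one.1 hfv]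

lemma neg_one_conj (g : G F V) : g * (-1) * g⁻¹ = -1 := by simp

variable [Finite (G F V)]

/-- A dihedral element between a singular element of the frame anticommuting with `y` and one of
another frame commuting with `y`. -/
lemma core (O : S.Over M) {g : G F V} (hg : g ∈ M) (hgN : g ∉ S.N0) {y : G F V} (hyR : y ∈ S.R)
    (hy : y * y = -1) (hyg : g⁻¹ * y * g ∈ S.R) {c : G F V} (hcR : c ∈ S.R) (hc : c * c = 1)
    (hc1 : c ≠ 1) (hc2 : c ≠ -1) (hcy : c * y = -(y * c)) {v : G F V} (hvM : v ∈ M)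
    (hvg : g⁻¹ * v * g ∈ S.R) (hv : v * v = 1) (hv1 : v ≠ 1) (hv2 : v ≠ -1) (hvy : v * y = y * v) :
    ∃ z ∈ S.R, z * z = -1 ∧ z * y = -(y * z) ∧ v * z * v⁻¹ = z⁻¹ ∧
      ∀ q, Commute c q → Commute v q → Commute z q := by
  set e := c * v with he
  have hcinv : c⁻¹ = c := inv_eq_of_mul_eq_one_right hc
  have hvinv : v⁻¹ = v := inv_eq_of_mul_eq_one_right hv
  have heinv : e⁻¹ = v * c := by rw [he, mul_inv_rev, hcinv, hvinv]
  have heM : e ∈ M := M.mul_mem (O.hN (S.R_le_N0 hcR)) hvM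
  have hey : e * y = -(y * e) := by
    rw [he, mul_assoc, hvy, ← mul_assoc, hcy, neg_mul, mul_assoc]
  have hpow : ∀ j : ℕ, e ^ (2 * j) * y = y * e ^ (2 * j) ∧
      e ^ (2 * j + 1) * y = -(y * e ^ (2 * j + 1)) := by
    intro j
    have h2 : Commute (e * e) y := by
      show e * e * y = y * (e * e)
      rw [mul_assoc, hey, mul_neg, ← mul_assoc, hey, neg_mul, neg_neg, mul_assoc]
    have h := h2.pow_left j
    rw [← pow_two, ← pow_mul] at h
    refine ⟨h.eq, ?_⟩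
    rw [pow_succ, mul_assoc, hey, mul_neg, ← mul_assoc, h.eq, mul_assoc]
  have hex : ∃ n, 0 < n ∧ Pm (e ^ n) 1 := ⟨orderOf e, orderOf_pos e, Or.inl (pow_orderOf_eq_one e)⟩
  classical
  obtain ⟨hn0, hn⟩ := Nat.find_spec hex
  set n := Nat.find hex with hn_def
  have hmin : ∀ i, 0 < i → i < n → ¬ Pm (e ^ i) 1 := fun i hi hin h =>
    Nat.find_min hex hin ⟨hi, h⟩
  obtain ⟨l, hl⟩ : ∃ l, n = 2 * l := by
    rcases Nat.even_or_odd' n with ⟨j, h | h⟩
    · exact ⟨j, h⟩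
    · exfalso
      have h' := (hpow j).2
      rw [← h] at h'
      rcases hn with e' | e' <;> rw [e'] at h' <;> simp at h'
      · exact S.ne_neg y h'
      · exact S.ne_neg y h'.symm
  set z := e ^ l with hz
  have hzz : Pm (z * z) 1 := by rw [hz, ← pow_add, ← two_mul, ← hl]; exact hn
  have hz1 : ¬ Pm z 1 := hmin l (by omega) (by omega)
  have hzinv : Pm z⁻¹ z := by
    have h := hzz.mul (Pm.refl z⁻¹)
    rw [mul_inv_cancel_right, one_mul] at h
    exact h.symm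
  have hceq : c * z * c⁻¹ = z⁻¹ := by
    rw [hz, ← inv_pow, show e⁻¹ = c * e * c⁻¹ by
      rw [heinv, he, hcinv, ← mul_assoc, hc, one_mul]]
    rw [conj_pow]
  have hveq : v * z * v⁻¹ = z⁻¹ := by
    rw [hz, ← inv_pow, show e⁻¹ = v * e * v⁻¹ by
      rw [heinv, he, hvinv, mul_assoc, mul_assoc c v v, hv, mul_one]]
    rw [conj_pow]
  have hzM : z ∈ M := M.pow_mem heM l
  have hzc : Pm (z * c * z⁻¹) c := Pm.comm (by rw [hceq]; exact hzinv)
  have hzv : Pm (z * v * z⁻¹) v := Pm.comm (by rw [hveq]; exact hzinv)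
  have hvzv : Pm (v * z * v⁻¹) z := by rw [hveq]; exact hzinv
  have hzN : z ∈ S.N0 := O.single_pm hcR hc hc1 hc2 hzM hzc
  have hgi := M.inv_mem hg
  have hzN' : g⁻¹ * z * g ∈ S.N0 := by
    refine O.single_pm hvg ?_ ?_ ?_ (M.mul_mem (M.mul_mem hgi hzM) hg) ?_
    · rw [show g⁻¹ * v * g * (g⁻¹ * v * g) = g⁻¹ * (v * v) * g by group, hv]; simp
    · intro e'
      exact hv1 (by have := congrArg (fun t => g * t * g⁻¹) e'; simpa [mul_assoc] using this)
    · intro e'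
      exact hv2 (by have := congrArg (fun t => g * t * g⁻¹) e'; simpa [mul_assoc] using this)
    · have h := hzv.conj g⁻¹
      rw [inv_inv] at h
      refine Pm.trans (Or.inl ?_) h
      group
  have hye : ∀ j : ℕ, Pm ((e ^ j)⁻¹ * y * e ^ j) y := by
    intro j
    rcases Nat.even_or_odd' j with ⟨i, rfl | rfl⟩
    · left; rw [mul_assoc, ← (hpow i).1, inv_mul_cancel_left]
    · right
      have h := (hpow i).2
      rw [mul_assoc, show y * e ^ (2 * i + 1) = -(e ^ (2 * i + 1) * y) by rw [h, neg_neg], mul_neg,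
        inv_mul_cancel_left]
  have hcomm : ∀ q, Commute c q → Commute v q → Commute z q := fun q h1 h2 =>
    (h1.mul_left h2).pow_left l
  rcases Nat.even_or_odd' l with ⟨j, hj | hj⟩
  · exfalso
    have hzy : z * y = y * z := by rw [hz, hj]; exact (hpow j).1
    have hzv' : z * v = e ^ j * v * (e ^ j)⁻¹ := by
      have h1 : v * e ^ j * v⁻¹ = (e ^ j)⁻¹ := by
        rw [← conj_pow, ← inv_pow, show v * e * v⁻¹ = e⁻¹ by
          rw [heinv, he, hvinv, mul_assoc, mul_assoc c v v, hv, mul_one]]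
      rw [hz, hj, two_mul, pow_add, mul_assoc (e ^ j) v, ← h1,
        show v * (v * e ^ j * v⁻¹) = v * v * (e ^ j * v⁻¹) by simp only [mul_assoc], hv, one_mul,
        hvinv, ← mul_assoc]
    have hzvR : g⁻¹ * (z * v) * g ∈ S.R := by
      refine O.swperp (h := g⁻¹ * e ^ j * g) (y := g⁻¹ * y * g)
        (M.mul_mem (M.mul_mem hgi (M.pow_mem heM j)) hg) hyg ?_ ?_ ?_ ?_ ?_ ?_
      · rw [show g⁻¹ * y * g * (g⁻¹ * y * g) = g⁻¹ * (y * y) * g by group, hy]; simp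
      · rw [show (g⁻¹ * e ^ j * g)⁻¹ * (g⁻¹ * y * g) * (g⁻¹ * e ^ j * g) =
          g⁻¹ * ((e ^ j)⁻¹ * y * e ^ j) * g by group]
        refine Pm.mem S.neg_one ?_ hyg
        have h := (hye j).conj g⁻¹
        rwa [inv_inv] at h
      · rw [show g⁻¹ * (z * v) * g = (g⁻¹ * z * g) * (g⁻¹ * v * g) by group]
        exact S.N0.mul_mem hzN' (S.R_le_N0 hvg)
      · rw [hzv', show g⁻¹ * (e ^ j * v * (e ^ j)⁻¹) * g * (g⁻¹ * (e ^ j * v * (e ^ j)⁻¹) * g) =
          g⁻¹ * (e ^ j * (v * v) * (e ^ j)⁻¹) * g by group, hv]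
        simp
      · rw [hzv', show (g⁻¹ * e ^ j * g)⁻¹ * (g⁻¹ * (e ^ j * v * (e ^ j)⁻¹) * g) * (g⁻¹ * e ^ j * g) =
          g⁻¹ * v * g by group]
        exact hvg
      · rw [show g⁻¹ * (z * v) * g * (g⁻¹ * y * g) = g⁻¹ * (z * (v * y)) * g by group,
          show g⁻¹ * y * g * (g⁻¹ * (z * v) * g) = g⁻¹ * (y * z * v) * g by group, hvy,
          ← hzy, mul_assoc z y v]
    have hzR' : g⁻¹ * z * g ∈ S.R := by
      have := S.R.mul_mem hzvR (S.R.inv_mem hvg)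
      rwa [show g⁻¹ * (z * v) * g * (g⁻¹ * v * g)⁻¹ = g⁻¹ * z * g by group] at this
    have hzne : ¬ Pm z y := by
      intro h
      have h1 := (h.mul (Pm.refl v)).sq
      rw [hzv', show e ^ j * v * (e ^ j)⁻¹ * (e ^ j * v * (e ^ j)⁻¹) =
        e ^ j * (v * v) * (e ^ j)⁻¹ by group, hv, mul_one, mul_inv_cancel,
        show y * v * (y * v) = y * (v * y) * v by simp only [mul_assoc], hvy,
        show y * (y * v) * v = (y * y) * (v * v) by simp only [mul_assoc], hy, hv, mul_one] at h1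
      exact S.one_ne_neg_one h1
    rcases hzz with hsq | hsq
    · have hzR := O.swperp hg hyR hy hyg hzN hsq hzR' hzy
      exact hgN (O.mem_of_common_single hg hzR hsq (fun h => hz1 (Or.inl h))
        (fun h => hz1 (Or.inr h)) hzR')
    · have hsq' : z * y * (z * y) = 1 := by
        rw [show z * y * (z * y) = z * (y * z) * y by simp only [mul_assoc], ← hzy,
          show z * (z * y) * y = (z * z) * (y * y) by simp only [mul_assoc], hsq, hy]
        simp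
      have hzyR' : g⁻¹ * (z * y) * g ∈ S.R := by
        rw [show g⁻¹ * (z * y) * g = (g⁻¹ * z * g) * (g⁻¹ * y * g) by group]
        exact S.R.mul_mem hzR' hyg
      have hzyR := O.swperp hg hyR hy hyg (S.N0.mul_mem hzN (S.R_le_N0 hyR)) hsq' hzyR'
        ((Commute.mul_left hzy (Commute.refl y) : Commute (z * y) y).eq)
      have hne : ¬ Pm (z * y) 1 := by
        intro h
        have h' := h.mul_right y⁻¹
        rw [mul_inv_cancel_right, one_mul] at h'
        refine hzne (h'.trans ?_)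
        rcases S.inv_eq hyR with e' | e'
        · exact Or.inl e'
        · exact Or.inr e'
      exact hgN (O.mem_of_common_single hg hzyR hsq' (fun h => hne (Or.inl h))
        (fun h => hne (Or.inr h)) hzyR')
  · have hzy : z * y = -(y * z) := by rw [hz, hj]; exact (hpow j).2
    have hzc' : z * c = (e ^ j * c) * v * (e ^ j * c)⁻¹ := by
      have h1 : c * (e ^ j)⁻¹ = e ^ j * c := by
        have h : c * e ^ j * c⁻¹ = (e ^ j)⁻¹ := by
          rw [← conj_pow, ← inv_pow, show c * e * c⁻¹ = e⁻¹ by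
            rw [heinv, he, hcinv, ← mul_assoc, hc, one_mul]]
        rw [← h, ← mul_assoc, ← mul_assoc, hc, one_mul, hcinv]
      rw [mul_inv_rev, hcinv, show e ^ j * c * v * (c * (e ^ j)⁻¹) = e ^ j * (c * v) * (c * (e ^ j)⁻¹) by
        simp only [mul_assoc], h1, hz, hj, pow_succ, two_mul, pow_add, ← he]
      rw [← mul_assoc (e ^ j * e) (e ^ j) c, mul_assoc (e ^ j) (e ^ j) e, ← pow_succ, pow_succ',
        ← mul_assoc (e ^ j) e, (Commute.pow_self e j).eq]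
    have hyh : Pm ((e ^ j * c)⁻¹ * y * (e ^ j * c)) y := by
      have h := (hye j).conj c⁻¹
      rw [inv_inv] at h
      refine Pm.trans (Or.inl (by group)) (h.trans (Or.inr ?_))
      rw [hcinv, hcy, neg_mul, mul_assoc, hc, mul_one]
    have hzcR : z * c ∈ S.R := by
      refine O.swperp (h := e ^ j * c * g)
        (M.mul_mem (M.mul_mem (M.pow_mem heM j) (O.hN (S.R_le_N0 hcR))) hg) hyR hy ?_
        (S.N0.mul_mem hzN (S.R_le_N0 hcR)) ?_ ?_ ?_
      · rw [show (e ^ j * c * g)⁻¹ * y * (e ^ j * c * g) =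
          g⁻¹ * ((e ^ j * c)⁻¹ * y * (e ^ j * c)) * g by group]
        refine Pm.mem S.neg_one ?_ hyg
        have h := hyh.conj g⁻¹
        rwa [inv_inv] at h
      · rw [hzc', show e ^ j * c * v * (e ^ j * c)⁻¹ * (e ^ j * c * v * (e ^ j * c)⁻¹) =
          e ^ j * c * (v * v) * (e ^ j * c)⁻¹ by group, hv, mul_one, mul_inv_cancel]
      · rw [hzc', show (e ^ j * c * g)⁻¹ * (e ^ j * c * v * (e ^ j * c)⁻¹) * (e ^ j * c * g) =
          g⁻¹ * v * g by group]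
        exact hvg
      · rw [mul_assoc, hcy, mul_neg, ← mul_assoc, hzy, neg_mul, neg_neg, mul_assoc]
    have hzR : z ∈ S.R := by
      have := S.R.mul_mem hzcR (S.R.inv_mem hcR)
      rwa [mul_inv_cancel_right] at this
    refine ⟨z, hzR, ?_, hzy, hveq, hcomm⟩
    rcases hzz with hsq | hsq
    · exfalso
      have hvN : v ∈ S.N0 := O.single_pm hzR hsq (fun h => hz1 (Or.inl h)) (fun h => hz1 (Or.inr h))
        hvM hvzv
      have hvR := O.swperp hg hyR hy hyg hvN hv hvg hvy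
      exact hgN (O.mem_of_common_single hg hvR hv hv1 hv2 hvg)
    · exact hsq

/-- A singular element of a conjugate frame commuting with given elements. -/
lemma exists_conj_single (O : S.Over M) {g : G F V} (hg : g ∈ M) {y y₁ : G F V}
    (hy : g⁻¹ * y * g ∈ S.R) (hy₁ : g⁻¹ * y₁ * g ∈ S.R) (h0 : ¬ Pm y 1) (h1 : ¬ Pm y₁ 1)
    (hne : ¬ Pm y₁ y) :
    ∃ v ∈ M, g⁻¹ * v * g ∈ S.R ∧ v * v = 1 ∧ v ≠ 1 ∧ v ≠ -1 ∧ v * y = y * v ∧ v * y₁ = y₁ * v := by
  have hcancel : ∀ a b : G F V, Pm (g⁻¹ * a * g) (g⁻¹ * b * g) → Pm a b := fun a b h => by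
    have h' := h.conj g
    rwa [show g * (g⁻¹ * a * g) * g⁻¹ = a by group, show g * (g⁻¹ * b * g) * g⁻¹ = b by group] at h'
  have hone : g⁻¹ * 1 * g = 1 := by simp
  obtain ⟨r, hr, hrsq, hr1, hr2, hru, -, hrv, -⟩ := O.exists_single hy hy₁
    (fun e => h0 (hcancel y 1 (Or.inl (by rw [e, hone]))))
    (fun e => h0 (hcancel y 1 (Or.inr (by rw [e, hone]))))
    (fun e => h1 (hcancel y₁ 1 (Or.inl (by rw [e, hone]))))
    (fun e => h1 (hcancel y₁ 1 (Or.inr (by rw [e, hone]))))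
    (fun h => hne (hcancel _ _ h)) 0 0
  refine ⟨g * r * g⁻¹, M.mul_mem (M.mul_mem hg (O.hN (S.R_le_N0 hr))) (M.inv_mem hg), ?_, ?_, ?_, ?_,
    ?_, ?_⟩
  · rw [show g⁻¹ * (g * r * g⁻¹) * g = r by group]; exact hr
  · rw [show g * r * g⁻¹ * (g * r * g⁻¹) = g * (r * r) * g⁻¹ by group, hrsq, mul_one, mul_inv_cancel]
  · intro e
    exact hr1 (by have := congrArg (fun t => g⁻¹ * t * g) e; simpa [mul_assoc] using this)
  · intro e
    exact hr2 (by have := congrArg (fun t => g⁻¹ * t * g) e; simpa [mul_assoc] using this)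
  · have := congrArg (fun t => g * t * g⁻¹) (hru rfl).symm
    simpa [mul_assoc] using this
  · have := congrArg (fun t => g * t * g⁻¹) (hrv rfl).symm
    simpa [mul_assoc] using this

/-- Two frames do not share an anticommuting pair of nonsingular elements. -/
lemma mem_of_pair (O : S.Over M) {g : G F V} (hg : g ∈ M) {y y₁ : G F V} (hy : y ∈ S.R)
    (hy₁ : y₁ ∈ S.R) (hy2 : y * y = -1) (hy12 : y₁ * y₁ = -1) (hanti : y₁ * y = -(y * y₁))
    (hyg : g⁻¹ * y * g ∈ S.R) (hy₁g : g⁻¹ * y₁ * g ∈ S.R) : g ∈ S.N0 := by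
  by_contra hgN
  have hn : ∀ {a : G F V}, a * a = -1 → ¬ Pm a 1 := fun ha h =>
    S.one_ne_neg_one ((S.ne_neg' h).symm.trans ha)
  have h0 := hn hy2
  have h1 := hn hy12
  have hne : ¬ Pm y₁ y := fun h => by
    have hc : y₁ * y = y * y₁ := by
      rcases h with rfl | rfl
      · rfl
      · rw [neg_mul, mul_neg]
    rw [hc] at hanti
    exact S.ne_neg _ hanti
  obtain ⟨c, hcR, hc, hc1, hc2, -, hcy, hcy₁, -⟩ := O.exists_single hy hy₁
    (fun e => h0 (Or.inl e)) (fun e => h0 (Or.inr e)) (fun e => h1 (Or.inl e))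
    (fun e => h1 (Or.inr e)) hne 1 0
  obtain ⟨v, hvM, hvg, hv, hv1, hv2, hvy, hvy₁⟩ := O.exists_conj_single hg hyg hy₁g h0 h1 hne
  obtain ⟨z, hzR, hzsq, hzy, hzeq, hzcomm⟩ := O.core hg hgN hy hy2 hyg hcR hc hc1 hc2
    (by rw [hcy rfl, neg_neg]) hvM hvg hv hv1 hv2 hvy
  have hzy₁ : z * y₁ = y₁ * z := (hzcomm y₁ (hcy₁ rfl).symm hvy₁).eq
  -- `z y₁` is singular and fixed up to sign by `v`
  have hsq : z * y₁ * (z * y₁) = 1 := by
    rw [show z * y₁ * (z * y₁) = z * (y₁ * z) * y₁ by simp only [mul_assoc], ← hzy₁,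
      show z * (z * y₁) * y₁ = (z * z) * (y₁ * y₁) by simp only [mul_assoc], hzsq, hy12]
    simp
  have hzv : Pm (v * z * v⁻¹) z := by rw [hzeq]; exact S.inv_eq hzR
  have hfix : Pm (v * (z * y₁) * v⁻¹) (z * y₁) := by
    rw [show v * (z * y₁) * v⁻¹ = (v * z * v⁻¹) * (v * y₁ * v⁻¹) by group,
      show v * y₁ * v⁻¹ = y₁ by rw [hvy₁, mul_inv_cancel_right]]
    exact hzv.mul_right y₁
  by_cases hz1 : Pm (z * y₁) 1
  · -- then `z = ± y₁` commutes with `v`, but `v` inverts it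
    have hinv : y₁⁻¹ = -y₁ := inv_eq_of_mul_eq_one_right (by rw [mul_neg, hy12, neg_neg])
    have hzy' : Pm z y₁ := by
      have h := hz1.mul_right y₁⁻¹
      rw [mul_inv_cancel_right, one_mul] at h
      exact h.trans (Or.inr hinv)
    have hvz : v * z * v⁻¹ = z := by
      rcases hzy' with e | e <;> rw [e]
      · rw [hvy₁, mul_inv_cancel_right]
      · rw [mul_neg, neg_mul, hvy₁, mul_inv_cancel_right]
    rw [hvz] at hzeq
    have hzz : z * z = 1 := by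
      nth_rewrite 2 [hzeq]
      exact mul_inv_cancel z
    exact S.one_ne_neg_one (hzz.symm.trans hzsq)
  · have hvN : v ∈ S.N0 := O.single_pm (S.R.mul_mem hzR hy₁) hsq (fun h => hz1 (Or.inl h))
      (fun h => hz1 (Or.inr h)) hvM hfix
    have hvR := O.swperp hg hy hy2 hyg hvN hv hvg hvy
    exact hgN (O.mem_of_common_single hg hvR hv hv1 hv2 hvg)

end Over

end Frame

end Cfsg.Agent.MaxSub.CSixSp
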