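import Cfsg.Agent.MaxSub.CSixSp.Centr

/-!
Weak closure of a frame in a proper overgroup of its normaliser, and the conclusion.
-/

set_option autoImplicit false
set_option linter.unusedSectionVars false
attribute [-instance] AddSubgroupClass.instZModModule

namespace Cfsg.Agent.MaxSub.CSixSp

variable {F : Type*} [Field F] {V : Type*} [AddCommGroup V] [Module F V] [Finite (G F V)]

namespace Frame

variable {B : LinearMap.BilinForm F V} {S : Frame B} {M : Subgroup (G F V)}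

namespace Over

/-- Two frames sharing a nonsingular element are equal. -/
lemma mem_of_common_nonsing (O : S.Over M) {g : G F V} (hg : g ∈ M) {y : G F V} (hyR : y ∈ S.R)
    (hy : y * y = -1) (hyg : g⁻¹ * y * g ∈ S.R) : g ∈ S.N0 := by
  by_contra hgN
  have hy1 : ¬ Pm y 1 := fun h => S.one_ne_neg_one ((S.ne_neg' h).symm.trans hy)
  have hk2 : 2 ≤ S.QS'.k := le_trans (by norm_num) O.hk
  have hy0 : S.cls ⟨y, hyR⟩ ≠ 0 := fun e => hy1 (S.cls_eq_zero.1 e)
  obtain ⟨x, hx, hxq⟩ := S.QS'.exists_B_q hk2 hy0 0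
  obtain ⟨c, rfl⟩ := S.cls_surjective x
  have hc : (c : G F V) * c = 1 := by
    have : S.qv (S.cls c) = 0 := hxq
    rwa [S.qv_cls, sgn_eq_zero] at this
  have hcy : y * c = -((c : G F V) * y) := (S.bf_eq_one (a := ⟨y, hyR⟩)).1 hx
  have hc0 : S.cls c ≠ 0 := fun e => by
    rw [e, map_zero] at hx
    exact zero_ne_one hx
  -- an element of the other frame commuting with `y`
  set y0 : S.R := ⟨g⁻¹ * y * g, hyg⟩
  have hy00 : S.cls y0 ≠ 0 := fun e => by
    have h : Pm (g⁻¹ * y * g) 1 := S.cls_eq_zero.1 e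
    have h' := h.conj g
    rw [show g * (g⁻¹ * y * g) * g⁻¹ = y by group, mul_one, mul_inv_cancel] at h'
    exact hy1 h'
  obtain ⟨x1, hx1, -⟩ := S.QS'.exists_B_q hk2 hy00 0
  obtain ⟨r1, rfl⟩ := S.cls_surjective x1
  have hr1 : ¬ Pm (g * (r1 : G F V) * g⁻¹) 1 := fun h => by
    have h' := h.conj g⁻¹
    rw [show g⁻¹ * (g * (r1 : G F V) * g⁻¹) * g⁻¹⁻¹ = r1 by group, mul_one, mul_inv_cancel] at h'
    rw [S.cls_eq_zero.2 h', map_zero] at hx1
    exact zero_ne_one hx1
  have hr1y : ¬ Pm (g * (r1 : G F V) * g⁻¹) y := fun h => by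
    have h' := h.conj g⁻¹
    rw [show g⁻¹ * (g * (r1 : G F V) * g⁻¹) * g⁻¹⁻¹ = r1 by group, inv_inv] at h'
    rw [show S.cls r1 = S.cls y0 from S.cls_eq_iff.2 (Pm.symm h')] at hx1
    exact zero_ne_one ((S.QS'.B_self _).symm.trans hx1)
  obtain ⟨v, hvM, hvg, hv, hv1, hv2, hvy, -⟩ := O.exists_conj_single hg hyg
    (by rw [show g⁻¹ * (g * (r1 : G F V) * g⁻¹) * g = r1 by group]; exact r1.2) hy1 hr1 hr1y
  obtain ⟨z, hzR, hzsq, hzy, hzeq, -⟩ := O.core hg hgN hyR hy hyg c.2 hc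
    (fun e => hc0 (S.cls_eq_zero.2 (Or.inl e))) (fun e => hc0 (S.cls_eq_zero.2 (Or.inr e)))
    (by rw [hcy, neg_neg]) hvM hvg hv hv1 hv2 hvy
  have hvinv : v⁻¹ = v := inv_eq_of_mul_eq_one_right hv
  have hvN : v ∈ S.N0 := O.mem_of_pair hvM hyR hzR hy hzsq hzy
    (by rw [hvinv, hvy, mul_assoc, hv, mul_one]; exact hyR)
    (by rw [hvinv] at hzeq ⊢; rw [hzeq]; exact S.R.inv_mem hzR)
  have hvR := O.swperp hg hyR hy hyg hvN hv hvg hvy
  exact hgN (O.mem_of_common_single hg hvR hv hv1 hv2 hvg)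

/-- Centralisers up to sign of elements of the frame normalise it. -/
lemma cpm (O : S.Over M) {r : G F V} (hr : r ∈ S.R) (h1 : ¬ Pm r 1) {g : G F V} (hg : g ∈ M)
    (h : Pm (g * r * g⁻¹) r) : g ∈ S.N0 := by
  rcases S.sq_sign r hr with hs | hs
  · exact O.single_pm hr hs (fun e => h1 (Or.inl e)) (fun e => h1 (Or.inr e)) hg h
  · refine O.mem_of_common_nonsing hg hr hs ?_
    have h' := (h.symm.conj g⁻¹)
    rw [inv_inv, show g⁻¹ * (g * r * g⁻¹) * g = r by group] at h'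
    exact Pm.mem S.neg_one h' hr

/-- Distinct frames share only the signs. -/
lemma common (O : S.Over M) {g : G F V} (hg : g ∈ M) (hgN : g ∉ S.N0) {q : G F V} (hq : q ∈ S.R)
    (hq' : g⁻¹ * q * g ∈ S.R) : Pm q 1 := by
  by_contra h1
  exact hgN (O.mem_of_common hg hq (fun e => h1 (Or.inl e)) (fun e => h1 (Or.inr e)) hq'
    fun k hk h => O.cpm hq h1 hk h)

/-- The classes of the elements that `g` conjugates into the normaliser. -/
def Din (O : S.Over M) (g : G F V) : Submodule (ZMod 2) S.E where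
  carrier := {e | g * (S.rep e : G F V) * g⁻¹ ∈ S.N0}
  add_mem' := by
    intro e f (he : g * (S.rep e : G F V) * g⁻¹ ∈ S.N0) (hf : g * (S.rep f : G F V) * g⁻¹ ∈ S.N0)
    have h : Pm (S.rep (e + f) : G F V) ((S.rep e : G F V) * S.rep f) :=
      S.cls_eq_iff.1 (show S.cls (S.rep e * S.rep f) = S.cls (S.rep (e + f)) by
        rw [S.cls_mul, S.cls_rep, S.cls_rep, S.cls_rep])
    refine Pm.mem S.neg_one_mem_N0 (h.conj g) ?_
    rw [show g * ((S.rep e : G F V) * S.rep f) * g⁻¹ =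
      (g * (S.rep e : G F V) * g⁻¹) * (g * (S.rep f : G F V) * g⁻¹) by group]
    exact S.N0.mul_mem he hf
  zero_mem' := by
    have h : Pm (S.rep 0 : G F V) 1 := S.cls_eq_zero.1 (S.cls_rep 0)
    exact Pm.mem S.neg_one_mem_N0 (h.conj g) (by simp [S.N0.one_mem])
  smul_mem' := by
    intro c e he
    rcases zmod2_cases c with rfl | rfl
    · rw [zero_smul]
      have h : Pm (S.rep 0 : G F V) 1 := S.cls_eq_zero.1 (S.cls_rep 0)
      exact Pm.mem S.neg_one_mem_N0 (h.conj g) (by simp [S.N0.one_mem])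
    · rw [one_smul]; exact he

/-- The transformation of the classes given by a conjugate of an element of the frame. -/
lemma exists_psi (O : S.Over M) {g : G F V} (hg : g ∈ M) (hgN : g ∉ S.N0) {b : S.E}
    (hb : b ∈ O.Din g) (hb0 : b ≠ 0) :
    ∃ n : S.Nm, (n : G F V) = g * (S.rep b : G F V) * g⁻¹ ∧ S.act n * S.act n = 1 ∧
      S.act n ≠ 1 ∧ ∀ e, S.act n e = e ↔ e ∈ O.Din g⁻¹ := by
  have hgi := M.inv_mem hg
  set s := g * (S.rep b : G F V) * g⁻¹ with hs
  have hsN : s ∈ S.N0 := hb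
  have hbpm : ¬ Pm (S.rep b : G F V) 1 := fun h => hb0 (by
    rw [← S.cls_rep b]; exact S.cls_eq_zero.2 h)
  refine ⟨⟨s, hsN.1⟩, rfl, ?_, ?_, ?_⟩
  · rw [← map_mul]
    refine LinearEquiv.ext fun e => ?_
    obtain ⟨a, rfl⟩ := S.cls_surjective e
    rw [S.act_cls']
    refine S.cls_eq_iff.2 (Or.inl ?_)
    show (a : G F V) = s * s * a * (s * s)⁻¹
    rw [hs, show g * (S.rep b : G F V) * g⁻¹ * (g * (S.rep b : G F V) * g⁻¹) =
      g * ((S.rep b : G F V) * S.rep b) * g⁻¹ by group]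
    rcases S.sq_sign _ (S.rep b).2 with e | e <;> rw [e] <;> simp
  · intro h
    have hsR := S.mem_R_of_act_eq_one (g := ⟨s, hsN.1⟩) hsN.2 h
    have hp := O.common hg hgN hsR (by
      rw [show g⁻¹ * s * g = (S.rep b : G F V) by rw [hs]; group]; exact (S.rep b).2)
    have h' := hp.conj g⁻¹
    rw [show g⁻¹ * s * g⁻¹⁻¹ = (S.rep b : G F V) by rw [hs]; group, mul_one, mul_inv_cancel] at h'
    exact hbpm h'
  · intro e
    show _ ↔ g⁻¹ * (S.rep e : G F V) * g⁻¹⁻¹ ∈ S.N0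
    rw [inv_inv]
    conv_lhs => rw [← S.cls_rep e, S.act_cls hsN.1, S.cls_eq_iff]
    show Pm (S.rep e : G F V) (s * (S.rep e : G F V) * s⁻¹) ↔ _
    set a := (S.rep e : G F V) with ha
    set t := g⁻¹ * a * g with ht
    constructor
    · intro h
      refine O.cpm (S.rep b).2 hbpm (M.mul_mem (M.mul_mem hgi (O.hN (S.R_le_N0 (S.rep e).2))) hg) ?_
      have h2 := (Pm.comm_of_conj h.symm).conj g⁻¹
      rw [inv_inv] at h2
      refine Pm.trans (Or.inl ?_) (h2.trans (Or.inl ?_))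
      · rw [hs]
        simp only [ht, mul_inv_rev, inv_inv, mul_assoc, mul_inv_cancel_left, inv_mul_cancel_left]
      · rw [hs]; group
    · intro htN
      have hq : s * a * s⁻¹ * a⁻¹ ∈ S.R := by
        rw [ha]
        exact S.R.mul_mem (S.conj_mem hsN.1 (S.rep e).2) (S.R.inv_mem (S.rep e).2)
      have hq' : g⁻¹ * (s * a * s⁻¹ * a⁻¹) * g ∈ S.R := by
        rw [show g⁻¹ * (s * a * s⁻¹ * a⁻¹) * g =
          (S.rep b : G F V) * (t * (S.rep b : G F V)⁻¹ * t⁻¹) by rw [hs, ht]; group]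
        exact S.R.mul_mem (S.rep b).2 (S.conj_mem htN.1 (S.R.inv_mem (S.rep b).2))
      have h := (O.common hg hgN hq hq').mul_right a
      rw [inv_mul_cancel_right, one_mul] at h
      exact h.symm

/-- The kernel of a conjugate involution has at least half the dimension. -/
lemma k_le_finrank (O : S.Over M) {g : G F V} (hg : g ∈ M) (hgN : g ∉ S.N0) {b : S.E}
    (hb : b ∈ O.Din g) (hb0 : b ≠ 0) : S.k ≤ Module.finrank (ZMod 2) (O.Din g⁻¹) := by
  obtain ⟨n, -, hnn, -, hfix⟩ := O.exists_psi hg hgN hb hb0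
  let ψ : S.E →ₗ[ZMod 2] S.E := (S.act n).toLinearMap + LinearMap.id
  have hker : LinearMap.ker ψ = O.Din g⁻¹ := by
    ext e
    rw [LinearMap.mem_ker, ← hfix]
    show S.act n e + e = 0 ↔ _
    constructor
    · intro e'; rw [← QS.add_cancel_right' (S.act n e) e, e', zero_add]
    · intro e'; rw [e', QS.add_self]
  have hle : LinearMap.range ψ ≤ LinearMap.ker ψ := by
    rintro _ ⟨e, rfl⟩
    rw [LinearMap.mem_ker]
    show S.act n (S.act n e + e) + (S.act n e + e) = 0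
    rw [map_add, show S.act n (S.act n e) = e from
      congrArg (fun f : S.E ≃ₗ[ZMod 2] S.E => f e) hnn, add_comm (S.act n e) e, QS.add_self]
  have h1 := ψ.finrank_range_add_finrank_ker
  have h2 := Submodule.finrank_mono hle
  rw [S.finrank_E] at h1
  rw [hker] at h1 h2
  omega

/-- One half of the weak closure count. -/
lemma injection (O : S.Over M) {g : G F V} (hg : g ∈ M) (hgN : g ∉ S.N0) {b₀ : S.E}
    (hb₀ : b₀ ∈ O.Din g) (hb₀0 : b₀ ≠ 0) {e : S.E} (he : e ∉ O.Din g⁻¹) :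
    ∃ Λ : ↥(O.Din g) →ₗ[ZMod 2] S.E, Function.Injective Λ ∧
      LinearMap.range Λ ≤ O.Din g⁻¹ ⊓ S.bf.orthogonal (O.Din g⁻¹) ∧
      ∀ b, S.qv (e + Λ b) = S.qv e := by
  set W := O.Din g
  set D := O.Din g⁻¹
  let f : ↥W → S.E := fun b => S.act ⟨g * (S.rep (b : S.E) : G F V) * g⁻¹, b.2.1⟩ e + e
  have hfacts : ∀ b : ↥W, (b : S.E) ≠ 0 → f b ∈ D ⊓ S.bf.orthogonal D ∧ f b ≠ 0 := by
    intro b hb0
    obtain ⟨n, hn, hnn, -, hfix⟩ := O.exists_psi hg hgN b.2 hb0
    have hfb : f b = S.act n e + e := by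
      show S.act _ e + e = _
      rw [show (⟨g * (S.rep (b : S.E) : G F V) * g⁻¹, b.2.1⟩ : S.Nm) = n from Subtype.ext hn.symm]
    rw [hfb]
    refine ⟨⟨(hfix _).1 ?_, ?_⟩, fun h0 => he ((hfix e).1 ?_)⟩
    · rw [map_add, show S.act n (S.act n e) = e from
        congrArg (fun f : S.E ≃ₗ[ZMod 2] S.E => f e) hnn, add_comm]
    · rw [SetLike.mem_coe, LinearMap.BilinForm.mem_orthogonal_iff]
      intro d hd
      show S.bf d (S.act n e + e) = 0
      rw [map_add]
      nth_rewrite 1 [← (hfix d).2 hd]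
      rw [show S.bf (S.act n d) (S.act n e) = S.bf d e from S.QS'.B_of_iso (S.qv_act n) d e,
        CharTwo.add_self_eq_zero]
    · rw [← QS.add_cancel_right' (S.act n e) e, h0, zero_add]
  have hpm_act : ∀ n n' : S.Nm, Pm (n : G F V) n' → S.act n = S.act n' := by
    intro n n' h
    refine LinearEquiv.ext fun x => ?_
    obtain ⟨a, rfl⟩ := S.cls_surjective x
    rw [S.act_cls', S.act_cls']
    exact S.cls_eq_iff.2 (((h.mul (Pm.refl (a : G F V))).mul h.inv).symm)
  have hadd : ∀ b c : ↥W, f (b + c) = f b + f c := by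
    intro b c
    set nb : S.Nm := ⟨g * (S.rep (b : S.E) : G F V) * g⁻¹, b.2.1⟩
    set nc : S.Nm := ⟨g * (S.rep (c : S.E) : G F V) * g⁻¹, c.2.1⟩
    have hbc : S.act ⟨g * (S.rep ((b + c : ↥W) : S.E) : G F V) * g⁻¹, (b + c).2.1⟩ =
        S.act nb * S.act nc := by
      rw [← map_mul]
      refine hpm_act _ _ ?_
      have h : Pm (S.rep ((b : S.E) + c) : G F V) ((S.rep (b : S.E) : G F V) * S.rep (c : S.E)) :=
        S.cls_eq_iff.1 (show S.cls (S.rep (b : S.E) * S.rep (c : S.E)) = S.cls (S.rep ((b : S.E) + c)) by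
          rw [S.cls_mul, S.cls_rep, S.cls_rep, S.cls_rep])
      refine (h.conj g).trans (Or.inl ?_)
      show _ = g * (S.rep (b : S.E) : G F V) * g⁻¹ * (g * (S.rep (c : S.E) : G F V) * g⁻¹)
      group
    show S.act _ e + e = f b + f c
    rw [hbc]
    show S.act nb (S.act nc e) + e = S.act nb e + e + (S.act nc e + e)
    by_cases hb0 : (b : S.E) = 0
    · have : S.act nb = 1 := by
        rw [← map_one S.act]
        refine hpm_act _ _ ?_
        have h : Pm (S.rep (b : S.E) : G F V) 1 := S.cls_eq_zero.1 (by rw [S.cls_rep, hb0])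
        exact (h.conj g).trans (Or.inl (by simp))
      rw [this]
      show S.act nc e + e = e + e + (S.act nc e + e)
      rw [QS.add_self, zero_add]
    obtain ⟨n, hn, -, -, hfix⟩ := O.exists_psi hg hgN b.2 hb0
    have hnb : n = nb := Subtype.ext hn
    have hmem : S.act nc e + e ∈ D := by
      by_cases hc0 : (c : S.E) = 0
      · have : S.act nc = 1 := by
          rw [← map_one S.act]
          refine hpm_act _ _ ?_
          have h : Pm (S.rep (c : S.E) : G F V) 1 := S.cls_eq_zero.1 (by rw [S.cls_rep, hc0])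
          exact (h.conj g).trans (Or.inl (by simp))
        rw [this]
        show e + e ∈ D
        rw [QS.add_self]
        exact D.zero_mem
      · exact (hfacts c hc0).1.1
    have hfixd := (hfix _).2 hmem
    rw [hnb, map_add] at hfixd
    calc S.act nb (S.act nc e) + e = (S.act nb (S.act nc e) + S.act nb e) + S.act nb e + e := by
          rw [QS.add_cancel_right']
      _ = S.act nb e + e + (S.act nc e + e) := by rw [hfixd]; abel
  let Λ : ↥W →ₗ[ZMod 2] S.E := (AddMonoidHom.mk' f hadd).toZModLinearMap 2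
  refine ⟨Λ, ?_, ?_, ?_⟩
  · refine (injective_iff_map_eq_zero Λ).2 fun b hb => ?_
    by_contra hb0
    exact (hfacts b (fun h => hb0 (Subtype.ext h))).2 hb
  · rintro _ ⟨b, rfl⟩
    by_cases hb0 : (b : S.E) = 0
    · rw [show b = 0 from Subtype.ext hb0, map_zero]
      exact Submodule.zero_mem _
    · exact (hfacts b hb0).1
  · intro b
    show S.qv (e + (S.act _ e + e)) = S.qv e
    rw [add_comm (S.act _ e) e, QS.add_cancel_left']
    exact S.qv_act _ e

/-- Weak closure. -/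
lemma closure (O : S.Over M) {g : G F V} (hg : g ∈ M) {r : G F V} (hr : r ∈ S.R) (h1 : ¬ Pm r 1)
    (hrN : g * r * g⁻¹ ∈ S.N0) : g ∈ S.N0 := by
  by_contra hgN
  have hgi := M.inv_mem hg
  have hgiN : g⁻¹ ∉ S.N0 := fun h => hgN (by simpa using S.N0.inv_mem h)
  set b₀ := S.cls ⟨r, hr⟩
  have hb₀0 : b₀ ≠ 0 := fun e => h1 (S.cls_eq_zero.1 e)
  have hb₀ : b₀ ∈ O.Din g := by
    have h : Pm r (S.rep b₀ : G F V) := S.cls_eq_iff.1 (S.cls_rep b₀)
    exact Pm.mem S.neg_one_mem_N0 (h.symm.conj g) hrN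
  have hDk := O.k_le_finrank hg hgN hb₀ hb₀0
  have hk := O.hk
  obtain ⟨d₀, hd₀, hd₀0⟩ := QS.exists_ne_zero_mem (U := O.Din g⁻¹) (by omega)
  have hWk : S.k ≤ Module.finrank (ZMod 2) (O.Din g) := by
    have h := O.k_le_finrank hgi hgiN hd₀ hd₀0
    rwa [inv_inv] at h
  set D := O.Din g⁻¹
  set W := O.Din g
  have hne : ∀ (g : G F V) (_ : g ∈ M) (_ : g ∉ S.N0) (b : S.E), b ∈ O.Din g → b ≠ 0 →
      ∃ e, e ∉ O.Din g⁻¹ := by
    intro g hg hgN b hb hb0
    obtain ⟨n, -, -, hn1, hfix⟩ := O.exists_psi hg hgN hb hb0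
    by_contra hcon
    push Not at hcon
    exact hn1 (LinearEquiv.ext fun e => (hfix e).2 (hcon e))
  have count : ∀ (g : G F V) (hg : g ∈ M) (hgN : g ∉ S.N0) (b : S.E), b ∈ O.Din g → b ≠ 0 →
      Module.finrank (ZMod 2) (O.Din g) ≤ Module.finrank (ZMod 2) (O.Din g⁻¹) ∧
      Module.finrank (ZMod 2) (O.Din g) + Module.finrank (ZMod 2) (O.Din g⁻¹) ≤ 2 * S.k := by
    intro g hg hgN b hb hb0
    obtain ⟨e, he⟩ := hne g hg hgN b hb hb0
    obtain ⟨Λ, hinj, hrange, -⟩ := O.injection hg hgN hb hb0 he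
    have h := LinearMap.finrank_range_of_inj hinj
    have h1 := Submodule.finrank_mono (hrange.trans inf_le_left)
    have h2 := Submodule.finrank_mono (hrange.trans inf_le_right)
    rw [LinearMap.BilinForm.finrank_orthogonal S.bf_nondegenerate, S.finrank_E] at h2
    have h3 : Module.finrank (ZMod 2) (O.Din g⁻¹) ≤ 2 * S.k := by
      rw [← S.finrank_E]; exact Submodule.finrank_le _
    omega
  obtain ⟨hWD, hsum⟩ : Module.finrank (ZMod 2) W ≤ Module.finrank (ZMod 2) D ∧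
      Module.finrank (ZMod 2) W + Module.finrank (ZMod 2) D ≤ 2 * S.k := count g hg hgN b₀ hb₀ hb₀0
  have hDWk : Module.finrank (ZMod 2) D ≤ Module.finrank (ZMod 2) W := by
    have h := (count g⁻¹ hgi hgiN d₀ hd₀ hd₀0).1
    rwa [inv_inv] at h
  have hDeq : Module.finrank (ZMod 2) D = S.k := by omega
  have hWeq : Module.finrank (ZMod 2) W = S.k := by omega
  -- every vector outside `D` determines the quadratic form on `D`
  have hval : ∀ e, e ∉ D → ∀ d ∈ D, S.qv d + S.bf e d = 0 := by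
    intro e he d hd
    obtain ⟨Λ, hinj, hrange, hq⟩ := O.injection hg hgN hb₀ hb₀0 he
    have h : Module.finrank (ZMod 2) (LinearMap.range Λ) = Module.finrank (ZMod 2) W :=
      LinearMap.finrank_range_of_inj hinj
    have heq : LinearMap.range Λ = D := Submodule.eq_of_le_of_finrank_le
      (hrange.trans inf_le_left : LinearMap.range Λ ≤ D) (by omega)
    obtain ⟨b, rfl⟩ : d ∈ LinearMap.range Λ := heq ▸ hd
    have := hq b
    rw [S.qv_add, add_assoc, add_eq_left] at this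
    exact this
  have hiso : ∀ u ∈ D, ∀ v ∈ D, S.bf u v = 0 := by
    obtain ⟨e, he⟩ := hne g hg hgN b₀ hb₀ hb₀0
    obtain ⟨Λ, hinj, hrange, -⟩ := O.injection hg hgN hb₀ hb₀0 he
    have h : Module.finrank (ZMod 2) (LinearMap.range Λ) = Module.finrank (ZMod 2) W :=
      LinearMap.finrank_range_of_inj hinj
    have heq : LinearMap.range Λ = D := Submodule.eq_of_le_of_finrank_le
      (hrange.trans inf_le_left : LinearMap.range Λ ≤ D) (by omega)
    intro u hu v hv
    have hv' := (hrange (heq.symm ▸ hv : v ∈ LinearMap.range Λ)).2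
    rw [SetLike.mem_coe, LinearMap.BilinForm.mem_orthogonal_iff] at hv'
    exact hv' u hu
  obtain ⟨e₁, he₁⟩ := S.QS'.exists_B_eq_one hd₀0
  change S.bf d₀ e₁ = 1 at he₁
  have he₁D : e₁ ∉ D := fun h => zero_ne_one ((hiso d₀ hd₀ e₁ h).symm.trans he₁)
  obtain ⟨e₀, he₀, he₀D⟩ : ∃ e₀, S.bf d₀ e₀ = 0 ∧ e₀ ∉ D := by
    by_contra hcon
    push Not at hcon
    have hle : S.QS'.perp d₀ ≤ D := fun x hx => hcon x (S.QS'.mem_perp.1 hx)
    have h1 := Submodule.finrank_mono hle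
    have h2 := S.QS'.le_finrank_perp d₀
    have : S.QS'.k = S.k := rfl
    omega
  have v1 := hval e₁ he₁D d₀ hd₀
  have v0 := hval e₀ he₀D d₀ hd₀
  rw [show S.bf e₁ d₀ = 1 from (S.QS'.B_comm e₁ d₀).trans he₁] at v1
  rw [show S.bf e₀ d₀ = 0 from (S.QS'.B_comm e₀ d₀).trans he₀, add_zero] at v0
  rw [v0, zero_add] at v1
  exact one_ne_zero v1

/-- A proper overgroup of the normaliser equals it. -/
theorem eq_N0 (O : S.Over M) : M = S.N0 := by
  refine le_antisymm (fun g hg => ?_) O.hN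
  by_contra hgN
  have hk2 : 2 ≤ S.QS'.k := le_trans (by norm_num) O.hk
  obtain ⟨ey, -, hey⟩ := S.QS'.exists_perp_q hk2 0 1
  obtain ⟨et, het1, het⟩ := S.QS'.exists_B_q hk2 (S.QS'.ne_zero_of_q hey) 0
  have het0 : et ≠ 0 := fun h => by
    rw [h, map_zero] at het1
    exact zero_ne_one het1
  set y := (S.rep ey : G F V) with hy_def
  set t := (S.rep et : G F V) with ht_def
  have hy : y * y = -1 := S.sq_of_qv_one hey
  have ht : t * t = 1 := S.sq_of_qv_zero het
  have hy1 : ¬ Pm y 1 := fun h => S.one_ne_neg_one ((S.ne_neg' h).symm.trans hy)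
  have ht1 : ¬ Pm t 1 := fun h => het0 (by rw [← S.cls_rep et]; exact S.cls_eq_zero.2 h)
  set s := g * y * g⁻¹ with hs
  have hsM : s ∈ M := M.mul_mem (M.mul_mem hg (O.hN (S.R_le_N0 (S.rep ey).2))) (M.inv_mem hg)
  have htM : t ∈ M := O.hN (S.R_le_N0 (S.rep et).2)
  have hsN : s ∉ S.N0 := fun h => hgN (O.closure hg (S.rep ey).2 hy1 h)
  have hss : s * s = -1 := by
    rw [hs, show g * y * g⁻¹ * (g * y * g⁻¹) = g * (y * y) * g⁻¹ by group, hy]; simp
  have htinv : t⁻¹ = t := inv_eq_of_mul_eq_one_right ht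
  have hsinv : Pm s⁻¹ s := Or.inr (inv_eq_of_mul_eq_one_right (by rw [mul_neg, hss, neg_neg]))
  set e := t * s with he
  have heM : e ∈ M := M.mul_mem htM hsM
  have het' : Pm (t * e * t⁻¹) e⁻¹ := by
    rw [he, htinv, mul_inv_rev, htinv, ← mul_assoc, ht, one_mul]
    exact (hsinv.symm).mul_right t
  have hconj : ∀ i : ℕ, Pm (t * e ^ i * t⁻¹) (e ^ i)⁻¹ := fun i => by
    rw [← conj_pow, ← inv_pow]; exact het'.pow i
  have hex : ∃ n, 0 < n ∧ Pm (e ^ n) 1 := ⟨orderOf e, orderOf_pos e, Or.inl (pow_orderOf_eq_one e)⟩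
  classical
  obtain ⟨hn0, hn⟩ := Nat.find_spec hex
  set n := Nat.find hex with hn_def
  -- conjugates of `t` and of `e t`
  have heven : ∀ j : ℕ, Pm (e ^ (2 * j) * t) (e ^ j * t * (e ^ j)⁻¹) := by
    intro j
    have h1 : Pm (t * (e ^ j)⁻¹) (e ^ j * t) := by
      have h := (Pm.refl t).mul ((hconj j).symm)
      refine h.trans (Or.inl ?_)
      rw [htinv, show t * (t * e ^ j * t) = (t * t) * e ^ j * t by simp only [mul_assoc], ht, one_mul]
    rw [two_mul, pow_add, mul_assoc, mul_assoc (e ^ j) t]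
    exact (Pm.refl (e ^ j)).mul h1.symm
  have hodd : ∀ j : ℕ, Pm (e ^ (2 * j + 1) * t) ((e ^ j * t) * s * (e ^ j * t)⁻¹) := by
    intro j
    rw [pow_succ', mul_assoc]
    refine ((Pm.refl e).mul (heven j)).trans (Or.inl ?_)
    rw [mul_inv_rev, ← mul_assoc, ← mul_assoc, (Commute.self_pow e j).eq, he, htinv]
    simp only [mul_assoc]
  obtain ⟨l, hl⟩ : ∃ l, n = 2 * l := by
    rcases Nat.even_or_odd' n with ⟨j, h | h⟩
    · exact ⟨j, h⟩
    · exfalso
      have h1 := hodd j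
      rw [← h] at h1
      have h2 : Pm t ((e ^ j * t) * s * (e ^ j * t)⁻¹) := by
        have h3 := (hn.mul_right t).symm
        rw [one_mul] at h3
        exact h3.trans h1
      have h3 := h2.sq
      rw [ht, show e ^ j * t * s * (e ^ j * t)⁻¹ * (e ^ j * t * s * (e ^ j * t)⁻¹) =
        e ^ j * t * (s * s) * (e ^ j * t)⁻¹ by group, hss] at h3
      refine S.one_ne_neg_one (h3.trans ?_)
      simp
  set z := e ^ l with hz
  have hzz : Pm (z * z) 1 := by rw [hz, ← pow_add, ← two_mul, ← hl]; exact hn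
  have hz1 : ¬ Pm z 1 := fun h => Nat.find_min hex (by omega : l < n) ⟨by omega, h⟩
  have hzM : z ∈ M := M.pow_mem heM l
  have hzinv : Pm z⁻¹ z := by
    have h := hzz.mul (Pm.refl z⁻¹)
    rw [mul_inv_cancel_right, one_mul] at h
    exact h.symm
  have htz : Pm (t * z * t⁻¹) z := (hconj l).trans hzinv
  have hzN : z ∈ S.N0 := O.cpm (S.rep et).2 ht1 hzM (Pm.comm_of_conj htz)
  have hztN : z * t ∈ S.N0 := S.N0.mul_mem hzN (S.R_le_N0 (S.rep et).2)
  have hztR : z * t ∈ S.R := by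
    have key : ∀ {w r : G F V}, r ∈ S.R → w ∈ S.N0 → w * r * w⁻¹ ∈ S.R := fun hr hw =>
      S.conj_mem hw.1 hr
    rcases Nat.even_or_odd' l with ⟨j, hj | hj⟩
    · have h := heven j
      rw [← hj] at h
      refine Pm.mem S.neg_one h (key (S.rep et).2 ?_)
      exact O.closure (M.pow_mem heM j) (S.rep et).2 ht1
        (Pm.mem S.neg_one_mem_N0 h.symm hztN)
    · have h := hodd j
      rw [← hj, hs, show e ^ j * t * (g * y * g⁻¹) * (e ^ j * t)⁻¹ =
        (e ^ j * t * g) * y * (e ^ j * t * g)⁻¹ by group] at h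
      refine Pm.mem S.neg_one h (key (S.rep ey).2 ?_)
      exact O.closure (M.mul_mem (M.mul_mem (M.pow_mem heM j) htM) hg) (S.rep ey).2 hy1
        (Pm.mem S.neg_one_mem_N0 h.symm hztN)
  have hzR : z ∈ S.R := by
    have := S.R.mul_mem hztR (S.R.inv_mem (S.rep et).2)
    rwa [mul_inv_cancel_right] at this
  refine hsN (O.cpm hzR hz1 hsM ?_)
  have hst : s = t * e := by rw [he, ← mul_assoc, ht, one_mul]
  rw [hst, mul_inv_rev, show t * e * z * (e⁻¹ * t⁻¹) = t * (e * z * e⁻¹) * t⁻¹ by group,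
    show e * z * e⁻¹ = z by rw [hz, (Commute.self_pow e l).eq, mul_inv_cancel_right]]
  exact htz

end Over

end Frame

end Cfsg.Agent.MaxSub.CSixSp
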