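import Cfsg.Agent.MaxSub.CSixSp.Quad

/-!
A group of isometries normalised by the products of two symmetries has no nontrivial normal
two-subgroup.
-/

set_option autoImplicit false
set_option linter.unusedSectionVars false
attribute [-instance] AddSubgroupClass.instZModModule

namespace Cfsg.Agent.MaxSub.CSixSp.QS

variable {E : Type*} [AddCommGroup E] [Module (ZMod 2) E] (Q : QS E) [Finite E]
variable {Ω W : Subgroup (E ≃ₗ[ZMod 2] E)}

/-- Normal two-subgroups of a normalised group are trivial. -/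
theorem two_normal_eq_bot (hk : 2 ≤ Q.k) (hΩ : Q.TNormal Ω) (hW : W ≤ Ω)
    (hWn : Ω ≤ Subgroup.normalizer (W : Set (E ≃ₗ[ZMod 2] E))) (hW2 : IsPGroup 2 W) : W = ⊥ := by
  have : Finite (E ≃ₗ[ZMod 2] E) := DFunLike.finite _
  have : Finite (Subgroup (E ≃ₗ[ZMod 2] E)) := Finite.of_injective _ SetLike.coe_injective
  let P : Subgroup (E ≃ₗ[ZMod 2] E) → Prop := fun X =>
    X ≤ Ω ∧ Ω ≤ Subgroup.normalizer (X : Set (E ≃ₗ[ZMod 2] E)) ∧ IsPGroup 2 X
  obtain ⟨M, hWM, hM⟩ := Set.Finite.exists_le_maximal (s := {X | P X}) (Set.toFinite _)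
    (show W ∈ {X | P X} from ⟨hW, hWn, hW2⟩)
  obtain ⟨hMΩ, hMn, hM2⟩ : P M := hM.1
  have hmax : ∀ X, P X → X ≤ M := fun X hX => by
    refine le_sup_right.trans (hM.2 (show M ⊔ X ∈ {X | P X} from ⟨sup_le hMΩ hX.1, fun g hg => ?_,
      IsPGroup.to_sup_of_normal_right' hM2 hX.2.2 (hMΩ.trans hX.2.1)⟩) le_sup_left)
    rw [Subgroup.mem_normalizer_iff_map_conj_eq, Subgroup.map_sup,
      Subgroup.mem_normalizer_iff_map_conj_eq.1 (hMn hg),
      Subgroup.mem_normalizer_iff_map_conj_eq.1 (hX.2.1 hg)]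
  have hτ : ∀ y z, Q.q y = 1 → Q.q z = 1 →
      M.map (MulAut.conj (Q.T y * Q.T z)).toMonoidHom ≤ M := by
    intro y z hy hz
    set τ := Q.T y * Q.T z with hτ
    have hτ' : τ⁻¹ = Q.T z * Q.T y := by rw [hτ, mul_inv_rev, Q.T_inv, Q.T_inv]
    refine hmax _ ⟨?_, fun g hg => ?_, hM2.map _⟩
    · rintro _ ⟨w, hw, rfl⟩
      exact hΩ.conj w (hMΩ hw) y z hy hz
    · have hg' := hΩ.conj g hg z y hz hy
      rw [← hτ', inv_inv] at hg'
      rw [Subgroup.mem_normalizer_iff_map_conj_eq, Subgroup.map_map]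
      conv_rhs => rw [← Subgroup.mem_normalizer_iff_map_conj_eq.1 (hMn hg'), Subgroup.map_map]
      congr 1
      ext w
      simp [mul_assoc]
  by_contra hne
  have hM1 : M ≠ ⊥ := fun h => hne (le_bot_iff.1 (h ▸ hWM))
  -- the fixed space of `M`
  let U : Submodule (ZMod 2) E :=
    { carrier := {e | ∀ w ∈ M, w e = e}
      add_mem' := fun {a b} ha hb w hw => by rw [map_add, ha w hw, hb w hw]
      zero_mem' := fun w _ => map_zero w
      smul_mem' := fun c a ha w hw => by rw [map_smul, ha w hw] }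
  have hUinv : ∀ a ∈ U, ∀ y z, Q.q y = 1 → Q.q z = 1 → Q.T y (Q.T z a) ∈ U := by
    intro a ha y z hy hz w hw
    have hc := hτ z y hz hy ⟨w, hw, rfl⟩
    have e := ha _ hc
    change (Q.T z * Q.T y * w * (Q.T z * Q.T y)⁻¹) a = a at e
    rw [mul_inv_rev, Q.T_inv, Q.T_inv] at e
    change Q.T z (Q.T y (w (Q.T y (Q.T z a)))) = a at e
    have h1 : ∀ u v, Q.T u (Q.T u v) = v := fun u v =>
      congrArg (fun f : E ≃ₗ[ZMod 2] E => f v) (Q.T_mul_self u)
    have e' := congrArg (fun t => Q.T y (Q.T z t)) e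
    simp only [h1] at e'
    exact e'
  have : Fact (Nat.Prime 2) := ⟨Nat.prime_two⟩
  have hne' : U ≠ ⊥ := by
    have hcard : 2 ∣ Nat.card E := by
      rw [Module.natCard_eq_pow_finrank (K := ZMod 2), Q.dim, Nat.card_zmod]
      exact dvd_pow_self 2 (by omega)
    obtain ⟨e, he, hne0⟩ := hM2.exists_fixed_point_of_prime_dvd_card_of_fixed_point E hcard
      (a := (0 : E)) (fun w => map_zero (w : E ≃ₗ[ZMod 2] E))
    intro h
    have hm : e ∈ U := fun w hw => he ⟨w, hw⟩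
    rw [h, Submodule.mem_bot] at hm
    exact hne0 hm.symm
  rcases Q.irred hk U hUinv with h | h
  · exact hne' h
  · apply hM1
    rw [Subgroup.eq_bot_iff_forall]
    intro w hw
    ext a
    exact (show a ∈ U from h ▸ Submodule.mem_top) w hw

end Cfsg.Agent.MaxSub.CSixSp.QS
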