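import Cfsg.Agent.MaxSub.CSixSp.Setup
import Cfsg.Agent.Forms.Alternating
import Cfsg.Agent.Linear.Symplectic

/-!
Transvections of an alternating space: transfer to coordinates, generation, transitivity and
normal subgroups of the isometry group.
-/

set_option autoImplicit false
set_option linter.unusedSectionVars false
attribute [-instance] AddSubgroupClass.instZModModule

namespace Cfsg.Agent.MaxSub.CSixSp

open Cfsg.Agent.Forms Cfsg.Agent.Linear.Symp
open scoped Matrix commutatorElement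

variable {F : Type*} [Field F] {V : Type*} [AddCommGroup V] [Module F V]

/-- Coordinates in which an alternating form is the standard one. -/
structure Coord (B : LinearMap.BilinForm F V) (m : ℕ) where
  e : V ≃ₗ[F] (Fin m ⊕ Fin m → F)
  form : ∀ u v, sympBil m F (e u) (e v) = B u v

theorem exists_coord [FiniteDimensional F V] {B : LinearMap.BilinForm F V} (hA : B.IsAlt)
    (hB : B.Nondegenerate) : ∃ m, Nonempty (Coord B m) := by
  obtain ⟨m, b, h1, h2, h3⟩ := exists_symplectic_basis hA hB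
  -- the standard pairing is `B (inr) (inl) = 1`
  let b' := b.reindex (Equiv.sumComm (Fin m) (Fin m))
  refine ⟨m, ⟨⟨b'.equivFun, fun u v => ?_⟩⟩⟩
  have hb : (sympBil m F).compl₁₂ b'.equivFun.toLinearMap b'.equivFun.toLinearMap = B := by
    refine LinearMap.ext_basis b' b' fun i j => ?_
    simp only [LinearMap.compl₁₂_apply, LinearEquiv.coe_coe, Module.Basis.equivFun_self,
      sympBil_apply]
    rw [sympForm_apply]
    rcases i with i | i <;> rcases j with j | j <;> simp [b']
    · exact (h3 i j).symm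
    · rw [← LinearMap.IsAlt.neg hA (b (Sum.inl j)), h1]
      by_cases h : i = j
      · subst h; simp [Finsupp.single_apply]
      · simp [Finsupp.single_apply, h, Ne.symm h]
    · rw [h1]
      by_cases h : i = j
      · subst h; simp [Finsupp.single_apply]
      · simp [Finsupp.single_apply, h, Ne.symm h]
    · exact (h2 i j).symm
  conv_rhs => rw [← hb]
  rfl

/-- The transvection `u ↦ u + c B(u, v) v`. -/
def tv {B : LinearMap.BilinForm F V} (hA : B.IsAlt) (v : V) (c : F) : G F V where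
  val := 1 + c • (LinearMap.smulRight (B.flip v) v)
  inv := 1 - c • (LinearMap.smulRight (B.flip v) v)
  val_inv := LinearMap.ext fun u => by
    simp [hA.self_eq_zero]
  inv_val := LinearMap.ext fun u => by
    simp [hA.self_eq_zero]

lemma tv_apply {B : LinearMap.BilinForm F V} (hA : B.IsAlt) (v : V) (c : F) (u : V) :
    (tv hA v c : Module.End F V) u = u + (c * B u v) • v := by
  simp [tv, mul_smul]

lemma tv_mem_Sp {B : LinearMap.BilinForm F V} (hA : B.IsAlt) (v : V) (c : F) :
    tv hA v c ∈ Sp B := fun a b => by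
  simp only [tv_apply, map_add, map_smul, LinearMap.add_apply, LinearMap.smul_apply, smul_eq_mul,
    hA.self_eq_zero]
  rw [← LinearMap.IsAlt.neg hA b v]
  ring

lemma tv_conj {B : LinearMap.BilinForm F V} (hA : B.IsAlt) {g : G F V} (hg : g ∈ Sp B) (v : V)
    (c : F) : g * tv hA v c * g⁻¹ = tv hA ((g : Module.End F V) v) c := by
  rw [mul_inv_eq_iff_eq_mul]
  refine Units.ext (LinearMap.ext fun u => ?_)
  simp only [Units.val_mul, Module.End.mul_apply, tv_apply, map_add, map_smul, hg u v]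

namespace Coord

variable {B : LinearMap.BilinForm F V} {m : ℕ} (C : Coord B m)

/-- The matrix of an endomorphism in the coordinates. -/
noncomputable def mat : Module.End F V ≃ₐ[F] Matrix (Fin m ⊕ Fin m) (Fin m ⊕ Fin m) F :=
  (LinearEquiv.conjAlgEquiv F C.e).trans LinearMap.toMatrixAlgEquiv'

lemma mat_mulVec (f : Module.End F V) (v : V) : C.mat f *ᵥ C.e v = C.e (f v) := by
  show LinearMap.toMatrix' ((LinearEquiv.conjAlgEquiv F C.e) f) *ᵥ C.e v = C.e (f v)
  rw [LinearMap.toMatrix'_mulVec]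
  simp [LinearEquiv.conjAlgEquiv]

/-- The isometry group in coordinates. -/
noncomputable def toSp : Sp B →* Matrix.symplecticGroup (Fin m) F where
  toFun g := ⟨C.mat (g : G F V), mem_symplecticGroup_iff_sympForm.2 fun u v => by
    obtain ⟨u, rfl⟩ := C.e.surjective u
    obtain ⟨v, rfl⟩ := C.e.surjective v
    rw [C.mat_mulVec, C.mat_mulVec, ← sympBil_apply, ← sympBil_apply, C.form, C.form]
    exact g.2 u v⟩
  map_one' := Subtype.ext (map_one C.mat)
  map_mul' g h := Subtype.ext (map_mul C.mat _ _)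

lemma app_toSp (g : Sp B) (v : V) : app (C.toSp g) (C.e v) = C.e (((g : G F V) : Module.End F V) v) :=
  C.mat_mulVec _ v

lemma toSp_injective : Function.Injective C.toSp := fun g h e =>
  Subtype.ext (Units.ext (C.mat.injective (congrArg Subtype.val e)))

lemma toSp_surjective : Function.Surjective C.toSp := fun s => by
  have h1 : (s : Matrix (Fin m ⊕ Fin m) (Fin m ⊕ Fin m) F) * ((s⁻¹ : Matrix.symplecticGroup (Fin m) F) :
      Matrix (Fin m ⊕ Fin m) (Fin m ⊕ Fin m) F) = 1 :=
    congrArg Subtype.val (mul_inv_cancel s)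
  have h2 : ((s⁻¹ : Matrix.symplecticGroup (Fin m) F) : Matrix (Fin m ⊕ Fin m) (Fin m ⊕ Fin m) F) *
      (s : Matrix (Fin m ⊕ Fin m) (Fin m ⊕ Fin m) F) = 1 :=
    congrArg Subtype.val (inv_mul_cancel s)
  let g : G F V := ⟨C.mat.symm s, C.mat.symm (s⁻¹ : Matrix.symplecticGroup (Fin m) F),
    by rw [← map_mul, h1, map_one], by rw [← map_mul, h2, map_one]⟩
  have hg : C.mat (g : Module.End F V) = s := C.mat.apply_symm_apply _
  refine ⟨⟨g, fun u v => ?_⟩, Subtype.ext hg⟩
  rw [← C.form, ← C.mat_mulVec, ← C.mat_mulVec, hg, sympBil_apply,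
    mem_symplecticGroup_iff_sympForm.1 s.2, ← sympBil_apply, C.form]

lemma toSp_tv (hA : B.IsAlt) (v : V) (c : F) :
    C.toSp ⟨tv hA v c, tv_mem_Sp hA v c⟩ = tau (C.e v) c := sp_ext fun w => by
  obtain ⟨w, rfl⟩ := C.e.surjective w
  rw [C.app_toSp, app_tau, C.form, tv_apply, map_add, map_smul]

include C in
/-- A subgroup containing every transvection contains the isometry group. -/
theorem Sp_le_of_tv (hA : B.IsAlt) {M : Subgroup (G F V)} (h : ∀ v c, tv hA v c ∈ M) :
    Sp B ≤ M := by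
  intro g hg
  have hK := closure_tau_le (K := (M.subgroupOf (Sp B)).map C.toSp) fun w c => by
    obtain ⟨v, rfl⟩ := C.e.surjective w
    exact ⟨⟨tv hA v c, tv_mem_Sp hA v c⟩, h v c, C.toSp_tv hA v c⟩
  obtain ⟨g', hg', he⟩ : C.toSp ⟨g, hg⟩ ∈ (M.subgroupOf (Sp B)).map C.toSp :=
    hK ▸ Subgroup.mem_top _
  rw [C.toSp_injective he] at hg'
  exact hg'

include C in
/-- Transitivity on nonzero vectors. -/
theorem exists_map {v w : V} (hv : v ≠ 0) (hw : w ≠ 0) :
    ∃ g ∈ Sp B, (g : Module.End F V) v = w := by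
  obtain ⟨s, hs⟩ := exists_app_eq (m := m) (F := F) (v := C.e v) (w := C.e w)
    (fun h => hv (C.e.map_eq_zero_iff.1 h)) (fun h => hw (C.e.map_eq_zero_iff.1 h))
  obtain ⟨g, rfl⟩ := C.toSp_surjective s
  rw [C.app_toSp] at hs
  exact ⟨g, g.2, C.e.injective hs⟩

include C in
/-- A normal subgroup with a non-scalar element is everything. -/
theorem Sp_le_of_normal [Fintype F] (hm : 2 ≤ m) (hq : 3 ≤ Fintype.card F) {K : Subgroup (G F V)}
    (hK : Sp B ≤ Subgroup.normalizer (K : Set (G F V))) {g : G F V} (hgK : g ∈ K) (hg : g ∈ Sp B)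
    (hns : ∀ c : F, (g : Module.End F V) ≠ c • (1 : Module.End F V)) : Sp B ≤ K := by
  have : NeZero m := ⟨by omega⟩
  set N := (K.subgroupOf (Sp B)).map C.toSp with hN
  have hnK : (K.subgroupOf (Sp B)).Normal := Subgroup.normal_subgroupOf_of_le_normalizer hK
  have hNn : N.Normal := Subgroup.Normal.map hnK _ C.toSp_surjective
  have hperf := commutator_eq_top (F := F) (m := m) (by
    rcases hm.eq_or_lt with rfl | h
    · exact Or.inr (Or.inl ⟨rfl, hq⟩)
    · exact Or.inl h)
  have hsimple := isSimpleGroup_PSp_of_perfect hperf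
  set Zc := Subgroup.center (Matrix.symplecticGroup (Fin m) F)
  let π := QuotientGroup.mk' Zc
  have hgN : C.toSp ⟨g, hg⟩ ∈ N := ⟨⟨g, hg⟩, hgK, rfl⟩
  have hgZ : C.toSp ⟨g, hg⟩ ∉ Zc := by
    intro h
    obtain ⟨a, ha⟩ := exists_eq_scalar _ (mem_center_iff.1 h)
    refine hns a (LinearMap.ext fun v => C.e.injective ?_)
    have := ha (C.e v)
    change app (C.toSp ⟨g, hg⟩) (C.e v) = a • C.e v at this
    rw [C.app_toSp] at this
    simpa using this
  have hNn' : (N.map π).Normal := Subgroup.Normal.map hNn _ (QuotientGroup.mk'_surjective _)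
  have htop : N.map π = ⊤ := (hsimple.eq_bot_or_eq_top_of_normal _ hNn').resolve_left fun h => by
    rw [Subgroup.map_eq_bot_iff, QuotientGroup.ker_mk'] at h
    exact hgZ (h hgN)
  have hsup : ∀ s, ∃ n ∈ N, ∃ z ∈ Zc, s = n * z := by
    intro s
    obtain ⟨n, hn, hns⟩ : π s ∈ N.map π := htop ▸ Subgroup.mem_top _
    exact ⟨n, hn, n⁻¹ * s, QuotientGroup.eq.1 hns, (mul_inv_cancel_left n s).symm⟩
  have hN_top : N = ⊤ := by
    rw [eq_top_iff, ← hperf, commutator_def, Subgroup.commutator_le]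
    rintro a - b -
    obtain ⟨n, hn, z, hz, rfl⟩ := hsup a
    obtain ⟨n', hn', z', hz', rfl⟩ := hsup b
    have e : (⁅n * z, n' * z'⁆ : Matrix.symplecticGroup (Fin m) F) = ⁅n, n'⁆ := by
      have h1 := Subgroup.mem_center_iff.1 hz
      have h2 := Subgroup.mem_center_iff.1 hz'
      simp only [commutatorElement_def, mul_inv_rev]
      calc n * z * (n' * z') * (z⁻¹ * n⁻¹) * (z'⁻¹ * n'⁻¹)
          = n * (z * (n' * z' * z⁻¹)) * n⁻¹ * (z'⁻¹ * n'⁻¹) := by simp only [mul_assoc]
        _ = n * (n' * z') * n⁻¹ * (z'⁻¹ * n'⁻¹) := by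
            rw [← h1 (n' * z' * z⁻¹), mul_assoc (n' * z') z⁻¹ z, inv_mul_cancel, mul_one]
        _ = n * n' * (z' * (n⁻¹ * z'⁻¹)) * n'⁻¹ := by simp only [mul_assoc]
        _ = n * n' * n⁻¹ * n'⁻¹ := by
            rw [← h2 (n⁻¹ * z'⁻¹), mul_assoc n⁻¹ z'⁻¹ z', inv_mul_cancel, mul_one]
    rw [e, commutatorElement_def]
    exact N.mul_mem (N.mul_mem (N.mul_mem hn hn') (N.inv_mem hn)) (N.inv_mem hn')
  intro h hh
  obtain ⟨h', hh', he⟩ : C.toSp ⟨h, hh⟩ ∈ N := hN_top ▸ Subgroup.mem_top _
  rw [C.toSp_injective he] at hh'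
  exact hh'

end Coord

end Cfsg.Agent.MaxSub.CSixSp
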