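import Cfsg.Agent.MaxSub.CSixSp.Lift
import Cfsg.Agent.MaxSub.CSixSp.Trans
import Cfsg.Agent.MaxSub.CSixSp.QuadCore

/-!
Overgroups of the normaliser of a frame: the centraliser of a singular element of the frame.
-/

set_option autoImplicit false
set_option linter.unusedSectionVars false
attribute [-instance] AddSubgroupClass.instZModModule

namespace Cfsg.Agent.MaxSub.CSixSp

variable {F : Type*} [Field F] {V : Type*} [AddCommGroup V] [Module F V]

lemma inv_apply_apply (g : G F V) (v : V) :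
    ((g⁻¹ : G F V) : Module.End F V) ((g : Module.End F V) v) = v := by
  rw [← Module.End.mul_apply, ← Units.val_mul, inv_mul_cancel]
  rfl

lemma apply_inv_apply (g : G F V) (v : V) :
    (g : Module.End F V) (((g⁻¹ : G F V) : Module.End F V) v) = v := by
  rw [← Module.End.mul_apply, ← Units.val_mul, mul_inv_cancel]
  rfl

/-- The normaliser of the frame is maximal in, or equal to, the isometry group. -/
def Frame.IsMax {B : LinearMap.BilinForm F V} (S : Frame B) : Prop :=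
  ∀ M : Subgroup (G F V), S.N0 ≤ M → M ≤ Sp B → M = S.N0 ∨ M = Sp B

namespace Frame

variable {B : LinearMap.BilinForm F V} (S : Frame B)

lemma qv_rep {x : S.E} : S.qv x = sgn (S.rep x : G F V) := rfl

/-- A singular element of the frame gives a block. -/
lemma exists_blk (hk : 2 ≤ S.k) {x : G F V} (hx : x ∈ S.R) (hsq : x * x = 1) (h1 : x ≠ 1)
    (h2 : x ≠ -1) : ∃ P : Blk S, P.x = x ∧ P.a * P.a = 1 := by
  have h0 : S.cls ⟨x, hx⟩ ≠ 0 := fun h => (S.cls_eq_zero.1 h).elim h1 h2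
  obtain ⟨y, hy, hq⟩ := S.QS'.exists_B_q (show 2 ≤ S.QS'.k from hk) h0 0
  obtain ⟨a, rfl⟩ := S.cls_surjective y
  refine ⟨⟨x, a, hx, a.2, hsq, ?_⟩, rfl, ?_⟩
  · exact (S.bf_eq_one (a := ⟨x, hx⟩)).1 hy
  · have hq' : S.qv (S.cls a) = 0 := hq
    rw [S.qv_cls, sgn_eq_zero] at hq'
    exact hq'

end Frame

namespace Blk

variable {B : LinearMap.BilinForm F V} {S : Frame B} (P : Blk S)
variable {M : Subgroup (G F V)}

/-- The classes in the restricted frame. -/
noncomputable def rc {r : S.R} (h : (r : G F V) ∈ P.C) : P.frame.E :=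
  P.frame.cls ⟨P.res ⟨r, h⟩, P.mem_R'.2 ⟨r, h, r.2, rfl⟩⟩

lemma rc_mul {r s : S.R} (hr : (r : G F V) ∈ P.C) (hs : (s : G F V) ∈ P.C)
    (hrs : ((r * s : S.R) : G F V) ∈ P.C) : P.rc hrs = P.rc hr + P.rc hs := by
  rw [rc, rc, rc, ← P.frame.cls_mul]
  exact congrArg P.frame.cls (Subtype.ext (P.res_mk_mul hr hs))

lemma rc_congr {r s : S.R} (hr : (r : G F V) ∈ P.C) (hs : (s : G F V) ∈ P.C)
    (h : S.cls r = S.cls s) : P.rc hr = P.rc hs := by
  rcases S.cls_eq_iff.1 h with e | e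
  · exact congrArg P.frame.cls (Subtype.ext (congrArg P.res (Subtype.ext e.symm)))
  · rw [rc, rc, P.frame.cls_eq_iff]
    right
    show P.res ⟨s, hs⟩ = -P.res ⟨r, hr⟩
    rw [← neg_one_mul (P.res ⟨r, hr⟩), ← P.res_neg_one, ← map_mul]
    exact congrArg P.res (Subtype.ext (by simpa using e))

lemma rc_x : P.rc (r := ⟨P.x, P.x_mem⟩) P.x_mem_C = 0 := by
  rw [rc, P.frame.cls_eq_zero]
  exact Or.inl P.res_x

lemma exists_rc (ξ : P.frame.E) :
    ∃ (r : S.R) (h : (r : G F V) ∈ P.C), P.rc h = ξ ∧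
      P.res ⟨r, h⟩ = (P.frame.rep ξ : G F P.U) := by
  obtain ⟨g, hg, hgR, he⟩ := P.mem_R'.1 (P.frame.rep ξ).2
  refine ⟨⟨g, hgR⟩, hg, ?_, he⟩
  conv_rhs => rw [← P.frame.cls_rep ξ]
  exact congrArg P.frame.cls (Subtype.ext he)

lemma x_cls_ne : S.cls ⟨P.x, P.x_mem⟩ ≠ 0 := fun h => by
  rcases S.cls_eq_zero.1 h with e | e <;> have h' := P.anti <;>
    rw [show P.x = _ from e] at h'
  · rw [one_mul, mul_one] at h'; exact S.ne_neg _ h'
  · rw [neg_one_mul, mul_neg, mul_one, neg_neg] at h'; exact S.ne_neg _ h'.symm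

/-- The part of `M` seen on the fixed space. -/
noncomputable def K (M : Subgroup (G F V)) : Subgroup (G F P.U) := M.comap P.ext

lemma K_le_Sp (hM : M ≤ Sp B) : P.K M ≤ Sp P.B' := fun h hh => by
  have := P.res_mem_Sp (g := ⟨P.ext h, P.ext_mem_C h⟩) (hM hh)
  rwa [P.res_ext] at this

lemma R'_le_K (hN : S.N0 ≤ M) : P.R' ≤ P.K M := fun _ hk => hN (P.ext_mem_N0 hk)

lemma res_mem_normalizer_K {g : G F V} (hg : g ∈ P.C) (hgM : g ∈ M) :
    P.res ⟨g, hg⟩ ∈ Subgroup.normalizer ((P.K M : Subgroup (G F P.U)) : Set (G F P.U)) := by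
  rw [Subgroup.mem_normalizer_iff]
  intro k
  show P.ext k ∈ M ↔ P.ext _ ∈ M
  rw [← P.conj_ext hg]
  exact ⟨fun h => M.mul_mem (M.mul_mem hgM h) (M.inv_mem hgM), fun h => by
    have := M.mul_mem (M.mul_mem (M.inv_mem hgM) h) hgM
    rwa [show g⁻¹ * (g * P.ext k * g⁻¹) * g = P.ext k by group] at this⟩

lemma N0'_le_normalizer_K (hN : S.N0 ≤ M) :
    P.frame.N0 ≤ Subgroup.normalizer ((P.K M : Subgroup (G F P.U)) : Set (G F P.U)) := fun h hh => by
  have := P.res_mem_normalizer_K (M := M) (P.lift_mem_C h) (hN (P.lift_mem_N0 hh))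
  rwa [P.res_lift] at this

/-- The images of `K` on the classes. -/
noncomputable def Omega (M : Subgroup (G F V)) : Subgroup (P.frame.E ≃ₗ[ZMod 2] P.frame.E) :=
  ((P.K M).subgroupOf P.frame.Nm).map P.frame.act

/-- The centraliser of the involution in `M` normalises the frame. -/
def Small (M : Subgroup (G F V)) : Prop := ∀ g ∈ M, g ∈ P.C → g ∈ S.N0

lemma small_of_K_eq (hN : S.N0 ≤ M) (hM : M ≤ Sp B) (hK : P.K M = P.R')
    (hK' : ∀ g ∈ M, ∀ hg : g ∈ P.C, P.res ⟨g, hg⟩ ∈ P.frame.Nm) : P.Small M := by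
  intro g hgM hg
  set h := P.res ⟨g, hg⟩
  have hh : h ∈ P.frame.N0 := ⟨hK' g hgM hg, P.res_mem_Sp (g := ⟨g, hg⟩) (hM hgM)⟩
  have hL := P.lift_mem_N0 hh
  have hg'M : (P.lift h)⁻¹ * g ∈ M := M.mul_mem (M.inv_mem (hN hL)) hgM
  have hg'C : (P.lift h)⁻¹ * g ∈ P.C := P.C.mul_mem (P.C.inv_mem (P.lift_mem_C h)) hg
  set g' := (P.lift h)⁻¹ * g with hg'
  have hres : P.res ⟨g', hg'C⟩ = 1 := by
    have e : (⟨g', hg'C⟩ : P.C) = (⟨P.lift h, P.lift_mem_C h⟩ : P.C)⁻¹ * ⟨g, hg⟩ := rfl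
    rw [e, map_mul, map_inv, P.res_lift, inv_mul_cancel]
  have e := P.eq_ext_mul_ext' ⟨g', hg'C⟩
  rw [hres, map_one, one_mul] at e
  set l := P.res ⟨P.a⁻¹ * g' * P.a, P.conj_a_inv_mem_C hg'C⟩
  change g' = P.ext' l at e
  have hl : l ∈ P.K M := by
    show P.ext l ∈ M
    rw [← P.conj_a_ext', ← e]
    exact M.mul_mem (M.mul_mem (hN (S.R_le_N0 P.a_mem)) hg'M)
      (M.inv_mem (hN (S.R_le_N0 P.a_mem)))
  rw [hK] at hl
  have hg'N : g' ∈ S.N0 := by
    rw [e, ext'_eq]
    exact S.N0.mul_mem (S.N0.mul_mem (S.R_le_N0 P.a_mem) (P.ext_mem_N0 hl))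
      (S.N0.inv_mem (S.R_le_N0 P.a_mem))
  rw [show g = P.lift h * g' by rw [hg', mul_inv_cancel_left]]
  exact S.N0.mul_mem hL hg'N

section Big

variable [Fintype F]

/-- If `K` is the whole isometry group of the fixed space, then `M` is the whole group. -/
theorem Sp_le_of_K (hk : 3 ≤ S.k) (hN : S.N0 ≤ M) (hK : Sp P.B' ≤ P.K M) : Sp B ≤ M := by
  have := S.finite_dim
  obtain ⟨m, ⟨C⟩⟩ := exists_coord S.alt S.nondeg
  obtain ⟨m', ⟨C'⟩⟩ := exists_coord P.frame.alt P.frame.nondeg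
  set Tset : Set V := {v | ∀ c : F, tv S.alt v c ∈ M}
  have hTM : ∀ g ∈ M, g ∈ Sp B → ∀ v ∈ Tset, (g : Module.End F V) v ∈ Tset := fun g hgM hg v hv c => by
    rw [← tv_conj S.alt hg]
    exact M.mul_mem (M.mul_mem hgM (hv c)) (M.inv_mem hgM)
  have hU : ∀ u : P.U, (u : V) ∈ Tset := fun u c => by
    have e : P.ext (tv P.frame.alt u c) = tv S.alt (u : V) c := by
      refine Units.ext (LinearMap.ext fun v => ?_)
      have hB : B (P.pr v : V) (u : V) = B v (u : V) := by
        conv_rhs => rw [← P.pr_self u, P.B_pr']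
        rw [P.pr_self]
      rw [ext_apply, tv_apply, tv_apply]
      simp only [LinearMap.BilinForm.restrict_apply, LinearMap.domRestrict_apply, hB,
        Submodule.coe_add, Submodule.coe_smul]
      abel
    rw [← e]
    exact hK (tv_mem_Sp P.frame.alt u c)
  have haM : P.a ∈ M := hN (S.R_le_N0 P.a_mem)
  have hU' : ∀ u : P.U, (P.a : Module.End F V) (u : V) ∈ Tset := fun u =>
    hTM P.a haM (S.R_le_Sp P.a_mem) _ (hU u)
  -- a mixed vector
  obtain ⟨n, hn, v₀, hv₀, hnS, hp₀, hq₀⟩ : ∃ n ∈ M, ∃ v₀ ∈ Tset,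
      n ∈ Sp B ∧ P.pr ((n : Module.End F V) v₀) ≠ 0 ∧
      P.pr (((P.a⁻¹ : G F V) : Module.End F V) ((n : Module.End F V) v₀)) ≠ 0 := by
    have hx0 := P.x_cls_ne
    obtain ⟨y, hy1, hy2⟩ := S.QS'.exists_B_q (show 2 ≤ S.QS'.k by show 2 ≤ S.k; omega) hx0 0
    change S.bf _ y = 1 at hy1
    change S.qv y = 0 at hy2
    obtain ⟨b, rfl⟩ := S.cls_surjective y
    have hb0 : S.cls b ≠ 0 := fun h => by
      rw [h, map_zero] at hy1
      exact zero_ne_one hy1
    have hqx : S.qv (S.cls ⟨P.x, P.x_mem⟩) = 0 := by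
      rw [S.qv_cls, sgn_eq_zero]; exact P.x_sq
    obtain ⟨n, hn, hnb⟩ := S.exists_conj (by omega) hx0 hb0 (hqx.trans hy2.symm)
    have hxb : P.x * b = -((b : G F V) * P.x) := S.bf_eq_one.1 hy1
    obtain ⟨w, hw⟩ : ∃ w : P.U, w ≠ 0 := by
      have := P.finrank_U
      have : 0 < Module.finrank F P.U := by rw [this.2]; positivity
      have := Module.nontrivial_of_finrank_pos this
      exact exists_ne 0
    set v := (n : Module.End F V) (w : V)
    have hv : v ≠ 0 := fun h => hw (Subtype.ext (by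
      rw [← inv_apply_apply n (w : V), show (n : Module.End F V) (w : V) = 0 from h, map_zero]
      rfl))
    have hbv : ((b : G F V) : Module.End F V) v = v ∨ ((b : G F V) : Module.End F V) v = -v := by
      have e : ((n * P.x * n⁻¹ : G F V) : Module.End F V) v = v := by
        simp only [v, Units.val_mul, Module.End.mul_apply, inv_apply_apply, P.mem_U.1 w.2]
      rcases hnb with h | h <;> rw [h] at e
      · exact Or.inl e
      · rw [Units.val_neg, LinearMap.neg_apply] at e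
        exact Or.inr (neg_eq_iff_eq_neg.1 e)
    have hxbv : (P.x : Module.End F V) (((b : G F V) : Module.End F V) v) =
        -(((b : G F V) : Module.End F V) ((P.x : Module.End F V) v)) := by
      simpa using congrArg (fun g : G F V => (g : Module.End F V) v) hxb
    have h2v : v ≠ -v := fun h => hv ((smul_eq_zero.1 (by
      rw [two_smul]; exact add_eq_zero_iff_eq_neg.2 h : (2 : F) • v = 0)).resolve_left S.two_ne)
    refine ⟨n, hN hn, (w : V), hU w, hn.2, fun h => ?_, fun h => ?_⟩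
    · have h' := congrArg (Subtype.val : P.U → V) h
      rw [P.pr_coe, Submodule.coe_zero, smul_eq_zero] at h'
      have hxv : (P.x : Module.End F V) v = -v :=
        eq_neg_of_add_eq_zero_right (h'.resolve_left (inv_ne_zero S.two_ne))
      rcases hbv with e | e <;>
        simp only [e, hxv, map_neg, neg_neg] at hxbv <;>
        first | exact h2v hxbv | exact h2v hxbv.symm
    · have h' := congrArg (Subtype.val : P.U → V) h
      rw [P.pr_a_inv, Submodule.coe_zero] at h'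
      have hinj := congrArg (P.a : Module.End F V) h'
      rw [apply_inv_apply, map_zero, sub_eq_zero] at hinj
      have hxv : (P.x : Module.End F V) v = v := P.mem_U.1 (by rw [show v = _ from hinj]; exact (P.pr v).2)
      rcases hbv with e | e <;>
        simp only [e, hxv, map_neg, neg_neg] at hxbv <;>
        first | exact h2v hxbv | exact h2v hxbv.symm
  have hall : ∀ v, v ∈ Tset := by
    intro v
    set p := P.pr v
    set q := P.pr (((P.a⁻¹ : G F V) : Module.End F V) v)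
    have hv : v = (p : V) + (P.a : Module.End F V) (q : V) := (P.split.left_inv v).symm
    by_cases hp : p = 0
    · rw [hv, hp, Submodule.coe_zero, zero_add]; exact hU' q
    by_cases hq : q = 0
    · rw [hv, hq, Submodule.coe_zero, map_zero, add_zero]; exact hU p
    set z := (n : Module.End F V) v₀
    have hz : z ∈ Tset := hTM n hn hnS v₀ hv₀
    obtain ⟨h, hh, hhp⟩ := C'.exists_map hp₀ hp
    obtain ⟨k, hkk, hkq⟩ := C'.exists_map hq₀ hq
    have hk'M : P.ext' k ∈ M := by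
      rw [ext'_eq]
      exact M.mul_mem (M.mul_mem haM (hK hkk)) (M.inv_mem haM)
    have hgS : P.ext h * P.ext' k ∈ Sp B :=
      (Sp B).mul_mem (P.ext_mem_Sp hh) ((Sp B).mul_mem ((Sp B).mul_mem (S.R_le_Sp P.a_mem)
        (P.ext_mem_Sp hkk)) ((Sp B).inv_mem (S.R_le_Sp P.a_mem)))
    have e : ((P.ext h * P.ext' k : G F V) : Module.End F V) z = v := by
      rw [Units.val_mul, Module.End.mul_apply, ext_apply, P.pr_ext', hhp, ext'_apply, hkq, hv]
      abel
    exact e ▸ hTM _ (M.mul_mem (hK hh) hk'M) hgS z hz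
  exact C.Sp_le_of_tv S.alt fun v c => hall v c

end Big

end Blk

end Cfsg.Agent.MaxSub.CSixSp
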