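import Cfsg.Agent.MaxSub.CSixSp.Block

/-!
Lifts from the fixed space of an involution to the normaliser of the frame.
-/

set_option autoImplicit false
set_option linter.unusedSectionVars false
attribute [-instance] AddSubgroupClass.instZModModule

namespace Cfsg.Agent.MaxSub.CSixSp

variable {F : Type*} [Field F] {V : Type*} [AddCommGroup V] [Module F V]

namespace Blk

variable {B : LinearMap.BilinForm F V} {S : Frame B} (P : Blk S)

lemma ext_neg_one : P.ext (-1) = -P.x := by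
  refine Units.ext (LinearMap.ext fun v => ?_)
  rw [ext_apply, Units.val_neg, Units.val_one, LinearMap.neg_apply, Module.End.one_apply,
    Submodule.coe_neg, Units.val_neg, LinearMap.neg_apply, pr_coe]
  have : v = (2 : F)⁻¹ • (v + v) := by
    rw [← two_smul F v, smul_smul, inv_mul_cancel₀ S.two_ne, one_smul]
  conv_lhs => arg 2; arg 1; rw [this]
  match_scalars <;> field_simp [S.two_ne] <;> ring

lemma ext'_neg_one : P.ext' (-1) = P.x := by
  have h : P.a * P.x = -(P.x * P.a) := by rw [P.anti, neg_neg]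
  rw [ext'_eq, P.ext_neg_one, mul_neg, h, neg_neg, mul_inv_cancel_right]

lemma res_mk_mul {g h : G F V} (hg : g ∈ P.C) (hh : h ∈ P.C) :
    P.res ⟨g * h, P.C.mul_mem hg hh⟩ = P.res ⟨g, hg⟩ * P.res ⟨h, hh⟩ :=
  map_mul P.res ⟨g, hg⟩ ⟨h, hh⟩

lemma res_x : P.res ⟨P.x, P.x_mem_C⟩ = 1 :=
  Units.ext (LinearMap.ext fun w => Subtype.ext (by
    rw [res_coe]
    exact P.mem_U.1 w.2))

lemma mem_C_of_R {r : G F V} (hr : r ∈ S.R) :
    r ∈ P.C ∨ r * P.a⁻¹ ∈ P.C := by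
  rcases S.comm_sign P.x_mem hr with h | h
  · exact Or.inl (P.mem_C.2 h)
  · refine Or.inr (P.mem_C.2 ?_)
    have h2 : P.x * P.a⁻¹ = -(P.a⁻¹ * P.x) := by
      rcases S.inv_eq P.a_mem with e | e <;> rw [e]
      · exact P.anti
      · rw [mul_neg, neg_mul, P.anti]
    rw [← mul_assoc, h, neg_mul, mul_assoc, h2, mul_neg, neg_neg, mul_assoc]

lemma lift_apply (h : G F P.U) : P.lift h = P.ext h * P.ext' h := rfl

lemma lift_mem_C (h : G F P.U) : P.lift h ∈ P.C := P.C.mul_mem (P.ext_mem_C h) (P.ext'_mem_C h)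

lemma res_lift (h : G F P.U) : P.res ⟨P.lift h, P.lift_mem_C h⟩ = h :=
  (P.res_mk_mul (P.ext_mem_C h) (P.ext'_mem_C h)).trans (by rw [P.res_ext, P.res_ext', mul_one])

lemma conj_a_ext' (h : G F P.U) : P.a * P.ext' h * P.a⁻¹ = P.ext h := by
  rw [ext'_eq, show P.a * (P.a * P.ext h * P.a⁻¹) * P.a⁻¹ =
    (P.a * P.a) * P.ext h * (P.a * P.a)⁻¹ by group]
  rcases S.sq_sign P.a P.a_mem with e | e <;> rw [e] <;> simp

lemma lift_comm_a (h : G F P.U) : P.a * P.lift h * P.a⁻¹ = P.lift h := by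
  rw [lift_apply, show P.a * (P.ext h * P.ext' h) * P.a⁻¹ =
    (P.a * P.ext h * P.a⁻¹) * (P.a * P.ext' h * P.a⁻¹) by group, ← P.ext'_eq, P.conj_a_ext']
  exact (P.commute_ext h h).eq.symm

/-- An element of `R` centralising the involution is a lift, up to the involution. -/
lemma R_cases {r : G F V} (hr : r ∈ S.R) (hc : r ∈ P.C) :
    r = P.lift (P.res ⟨r, hc⟩) ∨ r = P.lift (P.res ⟨r, hc⟩) * P.x := by
  have h := P.eq_ext_mul_ext' ⟨r, hc⟩
  rcases S.comm_sign P.a_mem hr with e | e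
  · left
    have hb : (⟨P.a⁻¹ * r * P.a, P.conj_a_inv_mem_C hc⟩ : P.C) = ⟨r, hc⟩ :=
      Subtype.ext (by show P.a⁻¹ * r * P.a = r; rw [mul_assoc, ← e, inv_mul_cancel_left])
    rw [hb] at h
    exact h
  · right
    have hb : (⟨P.a⁻¹ * r * P.a, P.conj_a_inv_mem_C hc⟩ : P.C) =
        ⟨-1, P.mem_C.2 (by simp)⟩ * ⟨r, hc⟩ := Subtype.ext (by
      show P.a⁻¹ * r * P.a = -1 * r
      rw [mul_assoc, show r * P.a = -(P.a * r) by rw [e, neg_neg], mul_neg, inv_mul_cancel_left,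
        neg_one_mul])
    rw [hb, map_mul, P.res_neg_one, map_mul P.ext', P.ext'_neg_one] at h
    change r = P.ext _ * (P.x * P.ext' _) at h
    rw [P.mem_C.1 (P.ext'_mem_C _), ← mul_assoc] at h
    exact h

lemma lift_mem_R {k : G F P.U} (hk : k ∈ P.R') : P.lift k ∈ S.R := by
  obtain ⟨r, hc, hr, rfl⟩ := P.mem_R'.1 hk
  rcases P.R_cases hr hc with h | h
  · exact h ▸ hr
  · have : P.lift (P.res ⟨r, hc⟩) = r * P.x⁻¹ := by
      conv_rhs => rw [h]
      rw [mul_inv_cancel_right]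
    rw [this]
    exact S.R.mul_mem hr (S.R.inv_mem P.x_mem)

lemma lift_mem_Sp {h : G F P.U} (hh : h ∈ Sp P.B') : P.lift h ∈ Sp B :=
  (Sp B).mul_mem (P.ext_mem_Sp hh)
    ((Sp B).mul_mem ((Sp B).mul_mem (S.R_le_Sp P.a_mem) (P.ext_mem_Sp hh))
      ((Sp B).inv_mem (S.R_le_Sp P.a_mem)))

/-- Conjugation by an element centralising `x` and `a` up to `R`. -/
lemma mem_Nm_of_conj_lift {g : G F V} (hx : g * P.x * g⁻¹ ∈ S.R) (ha : g * P.a * g⁻¹ ∈ S.R)
    (h : ∀ k ∈ P.R', g * P.lift k * g⁻¹ ∈ S.R) : g ∈ S.Nm := by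
  have hC : ∀ r ∈ S.R, r ∈ P.C → g * r * g⁻¹ ∈ S.R := by
    intro r hr hc
    have hk : P.res ⟨r, hc⟩ ∈ P.R' := P.mem_R'.2 ⟨r, hc, hr, rfl⟩
    rcases P.R_cases hr hc with e | e
    · rw [e]; exact h _ hk
    · rw [e, show g * (P.lift (P.res ⟨r, hc⟩) * P.x) * g⁻¹ =
        (g * P.lift (P.res ⟨r, hc⟩) * g⁻¹) * (g * P.x * g⁻¹) by group]
      exact S.R.mul_mem (h _ hk) hx
  refine S.mem_Nm_of_conj fun r hr => ?_
  rcases P.mem_C_of_R hr with hc | hc
  · exact hC r hr hc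
  · rw [show g * r * g⁻¹ = (g * (r * P.a⁻¹) * g⁻¹) * (g * P.a * g⁻¹) by group]
    exact S.R.mul_mem (hC _ (S.R.mul_mem hr (S.R.inv_mem P.a_mem)) hc) ha

/-- Lifts of the normaliser of the restricted frame normalise the frame. -/
lemma lift_mem_N0 {h : G F P.U} (hh : h ∈ P.frame.N0) : P.lift h ∈ S.N0 := by
  refine ⟨P.mem_Nm_of_conj_lift ?_ ?_ fun k hk => ?_, P.lift_mem_Sp hh.2⟩
  · rw [← P.mem_C.1 (P.lift_mem_C h), mul_inv_cancel_right]
    exact P.x_mem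
  · have e : P.lift h * P.a = P.a * P.lift h := (mul_inv_eq_iff_eq_mul.1 (P.lift_comm_a h)).symm
    rw [e, mul_inv_cancel_right]
    exact P.a_mem
  · rw [← map_inv, ← map_mul, ← map_mul]
    exact P.lift_mem_R (P.frame.conj_mem hh.1 hk)

/-- The group `R'`, extended by the identity, normalises the frame. -/
lemma ext_mem_N0 {k : G F P.U} (hk : k ∈ P.R') : P.ext k ∈ S.N0 := by
  have hsign : ∀ l : G F P.U, l = 1 ∨ l = -1 → P.ext l ∈ S.R ∧ P.ext' l ∈ S.R := by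
    rintro l (rfl | rfl)
    · simp
    · exact ⟨P.ext_neg_one ▸ S.neg_mem P.x_mem, P.ext'_neg_one ▸ P.x_mem⟩
  refine ⟨P.mem_Nm_of_conj_lift ?_ ?_ fun s hs => ?_, P.ext_mem_Sp (P.frame.isom k hk)⟩
  · rw [← P.mem_C.1 (P.ext_mem_C k), mul_inv_cancel_right]
    exact P.x_mem
  · have e : P.ext k * P.a * (P.ext k)⁻¹ = P.lift k * P.ext' (k⁻¹ * k⁻¹) * P.a := by
      simp only [lift_apply, map_mul, map_inv, ext'_eq]
      group
    rw [e]
    refine S.R.mul_mem (S.R.mul_mem (P.lift_mem_R hk) (hsign _ ?_).2) P.a_mem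
    rcases P.frame.sq_sign k⁻¹ (P.R'.inv_mem hk) with e | e
    · exact Or.inl e
    · exact Or.inr e
  · have e : P.ext k * P.lift s * (P.ext k)⁻¹ = P.lift s * P.ext (s⁻¹ * (k * s * k⁻¹)) := by
      have h1 : P.ext' s * (P.ext k)⁻¹ = (P.ext k)⁻¹ * P.ext' s := by
        rw [← map_inv]; exact (P.commute_ext k⁻¹ s).eq.symm
      have h2 := (P.commute_ext (s⁻¹ * (k * s * k⁻¹)) s).eq
      rw [lift_apply, mul_assoc (P.ext s) (P.ext' s), ← h2]
      simp only [map_mul, map_inv, mul_assoc, h1]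
      group
    rw [e]
    refine S.R.mul_mem (P.lift_mem_R hs) (hsign _ ?_).1
    rcases P.frame.comm_sign hk hs with e | e
    · left; rw [e, mul_inv_cancel_right, inv_mul_cancel]
    · right
      refine Units.ext ?_
      rw [e]
      simp [mul_assoc]

lemma conj_ext {g : G F V} (hg : g ∈ P.C) (k : G F P.U) :
    g * P.ext k * g⁻¹ = P.ext (P.res ⟨g, hg⟩ * k * (P.res ⟨g, hg⟩)⁻¹) := by
  set h := P.res ⟨g, hg⟩
  set l := P.res ⟨P.a⁻¹ * g * P.a, P.conj_a_inv_mem_C hg⟩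
  have e : g = P.ext h * P.ext' l := P.eq_ext_mul_ext' ⟨g, hg⟩
  rw [e, mul_inv_rev, map_mul, map_mul, map_inv]
  calc P.ext h * P.ext' l * P.ext k * ((P.ext' l)⁻¹ * (P.ext h)⁻¹)
      = P.ext h * (P.ext' l * P.ext k) * (P.ext' l)⁻¹ * (P.ext h)⁻¹ := by simp only [mul_assoc]
    _ = P.ext h * P.ext k * (P.ext h)⁻¹ := by
        rw [← (P.commute_ext k l).eq]; simp only [mul_assoc, mul_inv_cancel_left]

end Blk

end Cfsg.Agent.MaxSub.CSixSp
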