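import Cfsg.Agent.MaxSub.CSixSp.Act
import Cfsg.Agent.MaxSub.CSixSp.Trans
import Cfsg.Agent.MaxSub.LinearClasses
import Cfsg.Agent.ClassicalMax.SympCases

/-!
Frames and symplectic-type groups of matrices.
-/

set_option autoImplicit false
set_option linter.unusedSectionVars false
attribute [-instance] AddSubgroupClass.instZModModule

namespace Cfsg.Agent.MaxSub.CSixSp

open Cfsg.Geo Cfsg.Agent.Forms
open scoped Matrix MatrixGroups

variable {F : Type*} [Field F] {V : Type*} [AddCommGroup V] [Module F V]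
variable {B : LinearMap.BilinForm F V} {m : ℕ}

namespace Coord

variable (C : Coord B m)

/-- Units of endomorphisms as invertible matrices. -/
noncomputable def gl : G F V ≃* GL (Fin m ⊕ Fin m) F := Units.mapEquiv C.mat.toMulEquiv

lemma gl_val (g : G F V) :
    (C.gl g : Matrix (Fin m ⊕ Fin m) (Fin m ⊕ Fin m) F) = C.mat (g : Module.End F V) := rfl

lemma gl_mem_spGL {g : G F V} : C.gl g ∈ Cfsg.spGL m F ↔ g ∈ Sp B := by
  rw [mem_spGL_iff, mem_symplecticGroup_iff_sympForm]
  constructor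
  · intro h u v
    have := h (C.e u) (C.e v)
    rw [C.gl_val, C.mat_mulVec, C.mat_mulVec, ← sympBil_apply, ← sympBil_apply, C.form, C.form] at this
    exact this
  · intro h u v
    obtain ⟨u, rfl⟩ := C.e.surjective u
    obtain ⟨v, rfl⟩ := C.e.surjective v
    rw [C.gl_val, C.mat_mulVec, C.mat_mulVec, ← sympBil_apply, ← sympBil_apply, C.form, C.form]
    exact h u v

lemma map_Sp : (Sp B).map C.gl.toMonoidHom = Cfsg.spGL m F := by
  ext x
  obtain ⟨g, rfl⟩ := C.gl.surjective x
  rw [C.gl_mem_spGL]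
  exact ⟨fun ⟨g', hg', e⟩ => C.gl.injective e ▸ hg', fun h => ⟨g, h, rfl⟩⟩

lemma map_normalizer_inf (R : Subgroup (G F V)) :
    (Subgroup.normalizer (R : Set (G F V)) ⊓ Sp B).map C.gl.toMonoidHom =
      subgroupNormalizer (R.map C.gl.toMonoidHom) ⊓ Cfsg.spGL m F := by
  have hm : ∀ g, C.gl g ∈ R.map C.gl.toMonoidHom ↔ g ∈ R := fun g =>
    ⟨fun ⟨g', hg', e⟩ => C.gl.injective e ▸ hg', fun h => ⟨g, h, rfl⟩⟩
  ext x
  obtain ⟨g, rfl⟩ := C.gl.surjective x
  have hn : C.gl g ∈ subgroupNormalizer (R.map C.gl.toMonoidHom) ↔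
      g ∈ Subgroup.normalizer (R : Set (G F V)) := by
    rw [subgroupNormalizer, Subgroup.mem_normalizer_iff, Subgroup.mem_normalizer_iff]
    constructor
    · intro h r
      have := h (C.gl r)
      rwa [← map_inv, ← map_mul, ← map_mul, hm, hm] at this
    · intro h x
      obtain ⟨r, rfl⟩ := C.gl.surjective x
      rw [← map_inv, ← map_mul, ← map_mul, hm, hm]
      exact h r
  rw [Subgroup.mem_inf, hn, C.gl_mem_spGL]
  exact ⟨fun ⟨g', hg', e⟩ => C.gl.injective e ▸ hg', fun h => ⟨g, h, rfl⟩⟩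

end Coord

namespace Frame

variable (S : Frame B)

lemma card_Z : Nat.card S.Z = 2 := by
  have hne : (⟨-1, S.neg_one⟩ : S.R) ≠ 1 := fun e => S.one_ne_neg_one (congrArg Subtype.val e).symm
  let f : Bool → S.Z := fun b =>
    cond b (⟨1, S.Z.one_mem⟩ : S.Z) ⟨⟨-1, S.neg_one⟩, Or.inr rfl⟩
  have hf : Function.Bijective f := by
    constructor
    · intro a b e
      cases a <;> cases b
      · rfl
      · exact absurd (congrArg Subtype.val e) hne
      · exact absurd (congrArg Subtype.val e).symm hne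
      · rfl
    · rintro ⟨r, hr | hr⟩
      · exact ⟨true, Subtype.ext (Subtype.ext hr.symm)⟩
      · exact ⟨false, Subtype.ext (Subtype.ext hr.symm)⟩
  rw [← Nat.card_congr (Equiv.ofBijective f hf), Nat.card_eq_fintype_card, Fintype.card_bool]

lemma card_R : Nat.card S.R = 2 ^ (1 + 2 * S.k) := by
  rw [Subgroup.card_eq_card_quotient_mul_card_subgroup S.Z, S.card_Z, Nat.add_comm 1, pow_succ]
  congr 1
  exact (Nat.card_congr Additive.toMul.symm).trans S.card_E

lemma center_eq : Subgroup.center S.R = S.Z := by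
  ext r
  rw [Subgroup.mem_center_iff, S.mem_Z]
  constructor
  · intro h
    exact S.eq_sign_of_commute (S.R_le_Sp r.2) fun s hs => (congrArg Subtype.val (h ⟨s, hs⟩)).symm
  · rintro (h | h) s <;> refine Subtype.ext ?_ <;> simp [h]

lemma pow_four (r : S.R) : r ^ 4 = 1 := by
  refine Subtype.ext ?_
  show (r : G F V) ^ 4 = 1
  rw [show 4 = 2 * 2 from rfl, pow_mul, pow_two, pow_two]
  rcases S.sq_sign r r.2 with e | e <;> rw [e] <;> simp

lemma pGroup : IsPGroup 2 S.R := fun r => ⟨2, S.pow_four r⟩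

lemma exponent_eq (hk : 2 ≤ S.k) : Monoid.exponent S.R = 4 := by
  refine Nat.dvd_antisymm (Monoid.exponent_dvd_of_forall_pow_eq_one S.pow_four) ?_
  obtain ⟨y, -, hy⟩ := S.QS'.exists_perp_q (show 2 ≤ S.QS'.k from hk) 0 1
  have h2 : (S.rep y : G F V) * S.rep y = -1 := S.sq_of_qv_one hy
  have : orderOf (S.rep y) = 4 := by
    refine orderOf_eq_prime_pow (p := 2) (n := 1) (fun h => ?_) (S.pow_four _)
    have h' := congrArg Subtype.val h
    change ((S.rep y : G F V)) ^ 2 = 1 at h'
    rw [pow_two, h2] at h'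
    exact S.one_ne_neg_one h'.symm
  exact this ▸ Monoid.order_dvd_exponent (S.rep y)

/-- An abelian subgroup invariant under the normaliser is central. -/
lemma le_Z_of_invariant (hk : 2 ≤ S.k) (A : Subgroup S.R) (hA : IsMulCommutative A)
    (hinv : ∀ (n : S.Nm), ∀ a ∈ A, S.conjR n a ∈ A) : A ≤ S.Z := by
  let U : Submodule (ZMod 2) S.E := AddSubgroup.toZModSubmodule 2
    { carrier := {e | ∃ a ∈ A, S.cls a = e}
      add_mem' := fun ⟨a, ha, e1⟩ ⟨b, hb, e2⟩ => ⟨a * b, A.mul_mem ha hb, by rw [S.cls_mul, e1, e2]⟩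
      zero_mem' := ⟨1, A.one_mem, S.cls_one⟩
      neg_mem' := fun ⟨a, ha, e1⟩ => ⟨a, ha, by rw [e1, ZModModule.neg_eq_self]⟩ }
  have hU : ∀ e ∈ U, ∀ y z, S.QS'.q y = 1 → S.QS'.q z = 1 → S.QS'.T y (S.QS'.T z e) ∈ U := by
    rintro _ ⟨a, ha, rfl⟩ y z hy hz
    obtain ⟨n, -, hn⟩ := S.exists_act_TT hy hz
    refine ⟨S.conjR n a, hinv n a ha, ?_⟩
    rw [← S.act_cls', hn]
    rfl
  intro a ha
  rcases S.QS'.irred (show 2 ≤ S.QS'.k from hk) U hU with h | h
  · have : S.cls a ∈ U := ⟨a, ha, rfl⟩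
    rw [h, Submodule.mem_bot] at this
    exact S.cls_eq_zero.1 this
  · exfalso
    obtain ⟨y, -, hy⟩ := S.QS'.exists_perp_q (show 2 ≤ S.QS'.k from hk) 0 1
    obtain ⟨z, hz⟩ := S.QS'.exists_B_eq_one (S.QS'.ne_zero_of_q hy)
    obtain ⟨a, ha, rfl⟩ : y ∈ U := h ▸ Submodule.mem_top
    obtain ⟨b, hb, rfl⟩ : z ∈ U := h ▸ Submodule.mem_top
    have hc : (a : G F V) * b = b * a :=
      congrArg (fun x : A => ((x : S.R) : G F V)) (hA.is_comm.comm ⟨a, ha⟩ ⟨b, hb⟩)
    exact zero_ne_one ((S.bf_eq_zero.2 hc).symm.trans hz)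

/-- Conjugation by the normaliser as automorphisms. -/
def conjAut (n : S.Nm) : S.R ≃* S.R where
  toFun := S.conjR n
  invFun := S.conjR n⁻¹
  left_inv r := by rw [← S.conjR_mul, inv_mul_cancel]; exact Subtype.ext (by simp [conjR])
  right_inv r := by rw [← S.conjR_mul, mul_inv_cancel]; exact Subtype.ext (by simp [conjR])
  map_mul' := S.conjR_map_mul n

lemma cyclic_of_characteristic (hk : 2 ≤ S.k) (A : Subgroup S.R) (hc : A.Characteristic)
    (hA : IsMulCommutative A) : IsCyclic A := by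
  have hle := S.le_Z_of_invariant hk A hA fun n a ha =>
    Subgroup.characteristic_iff_map_le.1 hc (S.conjAut n) ⟨a, ha, rfl⟩
  have hcyc : IsCyclic S.Z := by
    have : Fact (Nat.Prime 2) := ⟨Nat.prime_two⟩
    exact isCyclic_of_prime_card S.card_Z
  exact isCyclic_of_injective (Subgroup.inclusion hle) (Subgroup.inclusion_injective hle)

lemma minus : IsOfMinusType S.k S.R := by
  intro A hA hsq
  let U : Submodule (ZMod 2) S.E := AddSubgroup.toZModSubmodule 2
    { carrier := {e | ∃ a ∈ A, S.cls a = e}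
      add_mem' := fun ⟨a, ha, e1⟩ ⟨b, hb, e2⟩ => ⟨a * b, A.mul_mem ha hb, by rw [S.cls_mul, e1, e2]⟩
      zero_mem' := ⟨1, A.one_mem, S.cls_one⟩
      neg_mem' := fun ⟨a, ha, e1⟩ => ⟨a, ha, by rw [e1, ZModModule.neg_eq_self]⟩ }
  have hts : Module.finrank (ZMod 2) U < S.k := S.ts U fun u hu => by
    obtain ⟨a, ha, rfl⟩ := hu
    rw [S.qv_cls, sgn_eq_zero]
    exact congrArg Subtype.val (hsq a ha)
  have := S.finite_R
  let f : A → U × S.Z := fun a =>
    (⟨S.cls (a : S.R), a, a.2, rfl⟩,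
      ⟨(a : S.R) * (S.rep (S.cls (a : S.R)))⁻¹, by
        rw [S.mem_Z, ← S.cls_eq_zero, S.cls_mul, S.cls_inv, S.cls_rep, QS.add_self]⟩)
  have hf : Function.Injective f := fun a b e => by
    have e1 : S.cls (a : S.R) = S.cls (b : S.R) := congrArg (fun p => ((p.1 : U) : S.E)) e
    have e2 := congrArg (fun p => ((p.2 : S.Z) : S.R)) e
    simp only [f] at e2
    rw [e1] at e2
    exact Subtype.ext (mul_right_cancel e2)
  have h := Nat.card_le_card_of_injective f hf
  rw [Nat.card_prod, S.card_Z, Module.natCard_eq_pow_finrank (K := ZMod 2) (V := U), Nat.card_zmod,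
    ← pow_succ] at h
  exact lt_of_le_of_lt h (Nat.pow_lt_pow_right one_lt_two (by omega))

section Glin

variable (C : Coord B m)

/-- The group in coordinates. -/
noncomputable def RGL : Subgroup (GL (Fin m ⊕ Fin m) F) := S.R.map C.gl.toMonoidHom

/-- The isomorphism with the group in coordinates. -/
noncomputable def eqvGL : S.R ≃* S.RGL C := S.R.equivMapOfInjective _ C.gl.injective

lemma RGL_le : S.RGL C ≤ Cfsg.spGL m F :=
  (Subgroup.map_mono S.R_le_Sp).trans C.map_Sp.le

lemma symplecticType_RGL (hk : 2 ≤ S.k) : IsSymplecticTypeGroup 2 (S.RGL C) where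
  prime := Nat.prime_two
  pGroup := S.pGroup.of_equiv (S.eqvGL C)
  cyclic_of_characteristic A hc hA := by
    set e := S.eqvGL C
    have hc' : (A.comap e.toMonoidHom).Characteristic := by
      rw [Subgroup.characteristic_iff_map_le]
      rintro φ _ ⟨a, ha, rfl⟩
      show e (φ a) ∈ A
      have := Subgroup.characteristic_iff_map_le.1 hc ((e.symm.trans φ).trans e) ⟨e a, ha, rfl⟩
      simpa using this
    have hA' : IsMulCommutative (A.comap e.toMonoidHom) := by
      constructor; constructor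
      intro a b
      refine Subtype.ext (e.injective ?_)
      rw [Subgroup.coe_mul, Subgroup.coe_mul, map_mul, map_mul]
      exact congrArg Subtype.val (hA.is_comm.comm ⟨e (a : S.R), a.2⟩ ⟨e (b : S.R), b.2⟩)
    have := S.cyclic_of_characteristic hk _ hc' hA'
    exact isCyclic_of_surjective (e.toMonoidHom.subgroupComap A)
      (e.toMonoidHom.subgroupComap_surjective_of_surjective A e.surjective)
  exponent_eq := by
    rw [Monoid.exponent_eq_of_mulEquiv (S.eqvGL C).symm, S.exponent_eq hk]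
    rfl

lemma card_RGL : Nat.card (S.RGL C) = 2 ^ (1 + 2 * S.k) := by
  rw [← Nat.card_congr (S.eqvGL C).toEquiv, S.card_R]

lemma card_center_RGL : Nat.card (Subgroup.center (S.RGL C)) = 2 := by
  rw [← Nat.card_congr (Subgroup.centerCongr (S.eqvGL C)).toEquiv, S.center_eq, S.card_Z]

lemma minus_RGL : IsOfMinusType S.k (S.RGL C) := by
  intro A hA hsq
  set e := S.eqvGL C
  have hcard : Nat.card (A.comap e.toMonoidHom) = Nat.card A :=
    Nat.card_congr (Equiv.subtypeEquiv e.toEquiv fun _ => Iff.rfl)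
  rw [← hcard]
  refine S.minus _ ?_ fun x hx => e.injective (by rw [map_mul, map_one]; exact hsq _ hx)
  constructor; constructor
  intro a b
  refine Subtype.ext (e.injective ?_)
  rw [Subgroup.coe_mul, Subgroup.coe_mul, map_mul, map_mul]
  exact congrArg Subtype.val (hA.is_comm.comm ⟨e (a : S.R), a.2⟩ ⟨e (b : S.R), b.2⟩)

lemma absIrred_RGL : ActsAbsolutelyIrreducibly (matrixSet (S.RGL C)) := by
  have hspan : Submodule.span F (matrixSet (S.RGL C)) = ⊤ := by
    have e : matrixSet (S.RGL C) = C.mat.toLinearMap ''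
        ((fun r : G F V => (r : Module.End F V)) '' (S.R : Set (G F V))) := by
      ext x
      constructor
      · rintro ⟨_, ⟨g, hg, rfl⟩, rfl⟩
        exact ⟨_, ⟨g, hg, rfl⟩, rfl⟩
      · rintro ⟨_, ⟨g, hg, rfl⟩, rfl⟩
        exact ⟨C.gl g, ⟨g, hg, rfl⟩, rfl⟩
    rw [e, Submodule.span_image, S.span_eq, Submodule.map_top, LinearMap.range_eq_top]
    exact C.mat.surjective
  refine ⟨fun W hW => ?_, fun M hM => ?_⟩
  · refine or_iff_not_imp_left.2 fun hne => eq_top_iff.2 fun v _ => ?_
    obtain ⟨w, hw, hw0⟩ := Submodule.exists_mem_ne_zero_of_ne_bot hne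
    obtain ⟨φ, hφ⟩ := Module.Projective.exists_dual_ne_zero F hw0
    set f := LinearMap.toMatrix' (LinearMap.smulRight φ ((φ w)⁻¹ • v))
    have hf : f ∈ Submodule.span F (matrixSet (S.RGL C)) := hspan ▸ Submodule.mem_top
    have key : ∀ x ∈ Submodule.span F (matrixSet (S.RGL C)), x *ᵥ w ∈ W := by
      intro x hx
      induction hx using Submodule.span_induction with
      | mem s hs => exact hW s hs ⟨w, hw, Matrix.toLin'_apply s w⟩
      | zero => simp
      | add a b _ _ ha hb => rw [Matrix.add_mulVec]; exact W.add_mem ha hb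
      | smul c a _ ha => rw [Matrix.smul_mulVec]; exact W.smul_mem c ha
    have := key f hf
    rwa [LinearMap.toMatrix'_mulVec, LinearMap.smulRight_apply, smul_smul, mul_inv_cancel₀ hφ,
      one_smul] at this
  · obtain ⟨c, hc⟩ := S.scalar_of_commute (f := C.mat.symm M) fun r hr => C.mat.injective (by
      rw [map_mul, map_mul, C.mat.apply_symm_apply]
      exact hM _ ⟨C.gl r, ⟨r, hr, rfl⟩, rfl⟩)
    exact ⟨c, C.mat.symm.injective (by rw [hc, map_smul, map_one])⟩

end Glin

end Frame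

/-- A symplectic-type group of matrices gives a frame. -/
theorem exists_frame_of_group [Fintype F] (hm : 0 < m) {k : ℕ} (h2 : (2 : F) ≠ 0)
    {R : Subgroup (GL (Fin m ⊕ Fin m) F)} (hR : IsSymplecticTypeGroup 2 R)
    (hirr : ActsAbsolutelyIrreducibly (matrixSet R)) (hRD : R ≤ Cfsg.spGL m F)
    (hcard : Nat.card R = 2 ^ (1 + 2 * k)) (hZ : Nat.card (Subgroup.center R) = 2) :
    ∃ (C : Coord (sympBil m F) m) (S : Frame (sympBil m F)), S.k = k ∧ S.RGL C = R := by
  let C : Coord (sympBil m F) m := ⟨LinearEquiv.refl F _, fun _ _ => rfl⟩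
  have hdeg := ClassicalMax.sympType_degree hm hR hirr hcard hZ
  have hcl := ClassicalMax.sympType_class_two hR hZ
  have : Nonempty (Fin m ⊕ Fin m) := ⟨.inl ⟨0, hm⟩⟩
  -- central elements are signs
  have hcen : ∀ z : R, z ∈ Subgroup.center R → (z : GL (Fin m ⊕ Fin m) F) = 1 ∨
      (z : GL (Fin m ⊕ Fin m) F) = -1 := by
    intro z hz
    obtain ⟨c, hc⟩ := MaxSub.exists_scalar_of_mem_center hirr hz
    obtain ⟨v, hv⟩ : ∃ v : Fin m ⊕ Fin m → F, v ≠ 0 := exists_ne 0
    obtain ⟨w, hw⟩ := exists_sympForm_eq_one hv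
    have h := mem_symplecticGroup_iff_sympForm.1 (mem_spGL_iff.1 (hRD z.2)) v w
    rw [hc, Matrix.smul_mulVec, Matrix.smul_mulVec, Matrix.one_mulVec, Matrix.one_mulVec,
      ← sympBil_apply, ← sympBil_apply, map_smul, map_smul, LinearMap.smul_apply, smul_eq_mul,
      smul_eq_mul, sympBil_apply, hw] at h
    rcases mul_self_eq_one_iff.1 (by linear_combination h : c * c = 1) with rfl | rfl
    · exact Or.inl (Units.ext (by simpa using hc))
    · exact Or.inr (Units.ext (by simpa using hc))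
  have hneg : (-1 : GL (Fin m ⊕ Fin m) F) ∈ R := by
    have : Nontrivial (Subgroup.center R) := Finite.one_lt_card_iff_nontrivial.1 (by rw [hZ]; norm_num)
    obtain ⟨z, hz⟩ := exists_ne (1 : Subgroup.center R)
    rcases hcen z z.2 with h | h
    · exact absurd (Subtype.ext (Subtype.ext h)) hz
    · exact h ▸ (z : R).2
  have hsq : ∀ g ∈ R, g * g = 1 ∨ g * g = -1 := by
    intro g hg
    refine hcen ⟨g * g, R.mul_mem hg hg⟩ (Subgroup.mem_center_iff.2 fun h => ?_)
    set g' : R := ⟨g, hg⟩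
    show h * (g' * g') = g' * g' * h
    set c := g' * h * g'⁻¹ * h⁻¹
    have hc : c ∈ Subgroup.center R := hcl (by
      have := Subgroup.commutator_mem_commutator (Subgroup.mem_top g') (Subgroup.mem_top h)
      simpa [c, commutatorElement_def, commutator_def] using this)
    have e1 : g' * h = c * h * g' := by simp only [c]; group
    have hc2 : c * c = 1 := by
      refine Subtype.ext ?_
      rcases hcen c hc with e | e <;> rw [Subgroup.coe_mul, e] <;> simp
    have e2 : g' * g' * h = c * c * (h * (g' * g')) := by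
      rw [mul_assoc g', e1, show g' * (c * h * g') = (g' * c) * h * g' by simp only [mul_assoc],
        Subgroup.mem_center_iff.1 hc g', show c * g' * h * g' = c * (g' * h) * g' by
          simp only [mul_assoc], e1]
      simp only [mul_assoc]
    rw [e2, hc2, one_mul]
  refine ⟨C, ⟨h2, sympBil_isAlt, sympBil_nondegenerate, R.comap C.gl.toMonoidHom, ?_, ?_, ?_, ?_, k,
    ?_⟩, rfl, Subgroup.map_comap_eq_self_of_surjective C.gl.surjective R⟩
  · intro r hr u v
    exact C.gl_mem_spGL.1 (hRD hr) u v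
  · show C.gl (-1) ∈ R
    rw [show C.gl (-1) = -1 from Units.ext (by simp [Coord.gl_val])]
    exact hneg
  · intro r hr
    rcases hsq _ hr with e | e
    · exact Or.inl (C.gl.injective (by rw [map_mul, map_one]; exact e))
    · refine Or.inr (C.gl.injective (Units.ext ?_))
      rw [map_mul]
      exact (congrArg Units.val e).trans (by simp [Coord.gl_val])
  · have h1 := Cfsg.Agent.GeoClasses.spanAlg_toSubmodule (F := F) R
    rw [Cfsg.Agent.GeoClasses.spanAlg_eq_top hirr, Algebra.top_toSubmodule] at h1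
    refine eq_top_iff.2 fun f _ => ?_
    have hf : C.mat f ∈ Submodule.span F (matrixSet R) := h1 ▸ Submodule.mem_top
    have : f = C.mat.symm.toLinearMap (C.mat f) := (C.mat.symm_apply_apply f).symm
    rw [this]
    have h3 := Submodule.mem_map_of_mem (f := C.mat.symm.toLinearMap) hf
    rw [Submodule.map_span] at h3
    refine Submodule.span_mono ?_ h3
    rintro _ ⟨_, ⟨g, hg, rfl⟩, rfl⟩
    refine ⟨C.gl.symm g, ?_, rfl⟩
    show C.gl (C.gl.symm g) ∈ R
    rw [MulEquiv.apply_symm_apply]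
    exact hg
  · rw [Module.finrank_fintype_fun_eq_card, Fintype.card_sum, Fintype.card_fin, ← hdeg]
    omega

end Cfsg.Agent.MaxSub.CSixSp
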