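import Cfsg.Agent.MaxSub.CSixSp.Singular
import Cfsg.Agent.MaxSub.CSixSp.Closure
import Cfsg.Agent.MaxSub.CSixSp.Matrices
import Cfsg.Agent.MaxSub.FormTools
import Cfsg.Agent.GeoLow.SympFourC6.Main

/-!
Normalisers of symplectic-type groups of minus type are maximal in `Sp_{2^k}(p)`.
-/

set_option autoImplicit false
set_option linter.unusedSectionVars false
attribute [-instance] AddSubgroupClass.instZModModule

namespace Cfsg.Agent.MaxSub.CSixSp

open Cfsg.Geo Cfsg.Agent.Forms
open scoped Matrix MatrixGroups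

universe u v

variable {F : Type u} [Field F] [Fintype F]

lemma card_ge_three (h2 : (2 : F) ≠ 0) : 3 ≤ Fintype.card F := by
  have h1 : 1 < Fintype.card F := Fintype.one_lt_card
  by_contra h
  have hc : Fintype.card F = 2 := by omega
  exact h2 (by exact_mod_cast hc ▸ FiniteField.cast_card_eq_zero F)

lemma odd_card (h2 : (2 : F) ≠ 0) : Odd (Fintype.card F) :=
  GeoClasses.two_ne_zero_iff_odd_card.1 h2

/-- The base of the induction: dimension four. -/
theorem isMax_two {p : ℕ} (hp : p.Prime) (hF : Fintype.card F = p) {V : Type v} [AddCommGroup V]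
    [Module F V] {B : LinearMap.BilinForm F V} (S : Frame B) (hk : S.k = 2) : S.IsMax := by
  have := S.finite_dim
  obtain ⟨m, ⟨C⟩⟩ := exists_coord S.alt S.nondeg
  obtain rfl : m = 2 := by
    have h := C.e.finrank_eq
    rw [S.dim, hk, Module.finrank_fintype_fun_eq_card, Fintype.card_sum, Fintype.card_fin] at h
    omega
  have hk2 : 2 ≤ S.k := hk.ge
  have hmax := GeoLow.C6.spGL_symplecticType_maximal_two (odd_card S.two_ne) hp hF
    (S.symplecticType_RGL C hk2) (S.absIrred_RGL C) (S.RGL_le C)
    (by rw [S.card_RGL, hk]; norm_num) (S.card_center_RGL C) (by have h := S.minus_RGL C; rwa [hk] at h)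
  have hN0 : S.N0.map C.gl.toMonoidHom = subgroupNormalizer (S.RGL C) ⊓ Cfsg.spGL 2 F :=
    C.map_normalizer_inf S.R
  intro M hN hM
  rcases hmax.2 (M.map C.gl.toMonoidHom) (hN0 ▸ Subgroup.map_mono hN)
      ((Subgroup.map_mono hM).trans C.map_Sp.le) with h | h
  · exact Or.inl (Subgroup.map_injective C.gl.injective (h.trans hN0.symm))
  · exact Or.inr (Subgroup.map_injective C.gl.injective (h.trans C.map_Sp.symm))

/-- Overgroups of the normaliser of a frame. -/
theorem isMax {p : ℕ} (hp : p.Prime) (hF : Fintype.card F = p) :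
    ∀ (k : ℕ), 2 ≤ k → ∀ {V : Type v} [AddCommGroup V] [Module F V]
      {B : LinearMap.BilinForm F V} (S : Frame B), S.k = k → S.IsMax := by
  intro k hk
  induction k, hk using Nat.le_induction with
  | base => intro V _ _ B S hS; exact isMax_two hp hF S hS
  | succ k hk ih =>
    intro V _ _ B S hS M hN hM
    by_cases hne : Sp B ≤ M
    · exact Or.inr (le_antisymm hM hne)
    have := S.finite_dim
    have : Finite (Module.End F V) := Module.finite_of_finite F
    have : Finite (G F V) := inferInstance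
    refine Or.inl (Frame.Over.eq_N0 (S := S) (M := M) ?_)
    · refine ⟨by omega, hN, hM, fun r hr hsq h1 h2 g hg hc => ?_⟩
      obtain ⟨P, hP, -⟩ := S.exists_blk (by omega) hr hsq h1 h2
      refine P.small (by omega) hN hM hne (fun P' => ih P'.frame ?_) (card_ge_three S.two_ne) g hg ?_
      · rw [P'.frame_k, hS]; rfl
      · rw [P.mem_C, hP]; exact hc

variable [Finite F]

/-- Normalisers of symplectic-type groups of minus type are maximal in `Sp_{2^k}(p)`, `k ≥ 3`. -/
theorem spGL_symplecticType_maximal {m p k : ℕ} (hm : 3 ≤ m) (hp : p.Prime) (hpo : Odd p)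
    (hF : Fintype.card F = p) {R : Subgroup (GL (Fin m ⊕ Fin m) F)}
    (hR : IsSymplecticTypeGroup 2 R) (hirr : ActsAbsolutelyIrreducibly (matrixSet R))
    (hRD : R ≤ Cfsg.spGL m F) (hcard : Nat.card R = 2 ^ (1 + 2 * k))
    (hZ : Nat.card (Subgroup.center R) = 2) :
    IsMaximalIn (Cfsg.spGL m F) (subgroupNormalizer R ⊓ Cfsg.spGL m F) := by
  have h2 : (2 : F) ≠ 0 := GeoClasses.two_ne_zero_iff_odd_card.2 (hF ▸ hpo)
  obtain ⟨C, S, hSk, hSR⟩ := exists_frame_of_group (by omega) h2 hR hirr hRD hcard hZ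
  have hk : 2 ≤ S.k := by
    by_contra h
    have hd := ClassicalMax.sympType_degree (by omega : 0 < m) hR hirr hcard hZ
    have : 2 ^ k ≤ 2 ^ 1 := Nat.pow_le_pow_right two_pos (by omega)
    omega
  have hN0 : S.N0.map C.gl.toMonoidHom = subgroupNormalizer R ⊓ Cfsg.spGL m F := by
    rw [← hSR]; exact C.map_normalizer_inf S.R
  refine ⟨lt_of_le_of_ne inf_le_right fun h => ?_, fun M hN hM => ?_⟩
  · exact MaxSub.spGL_not_le_normalizer_of_three_le hm hirr (ClassicalMax.sympType_class_two hR hZ)
      (fun z hz => MaxSub.exists_scalar_of_mem_center hirr hz) (inf_eq_right.1 h)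
  · have h := isMax hp hF S.k hk S rfl (M.comap C.gl.toMonoidHom) ?_ ?_
    · rcases h with h | h
      · left
        rw [← hN0, ← h, Subgroup.map_comap_eq_self_of_surjective (f := C.gl.toMonoidHom) C.gl.surjective M]
      · right
        rw [← C.map_Sp, ← h, Subgroup.map_comap_eq_self_of_surjective (f := C.gl.toMonoidHom) C.gl.surjective M]
    · rw [← Subgroup.map_le_iff_le_comap, hN0]
      exact hN
    · intro g hg
      exact C.gl_mem_spGL.1 (hM hg)

end Cfsg.Agent.MaxSub.CSixSp
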