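import Mathlib

/-!
Quadratic spaces over `ZMod 2` whose totally singular subspaces have dimension below half of the
dimension: orbits of products of two symmetries, and normalised subgroups of the orthogonal group.
-/

set_option autoImplicit false
set_option linter.unusedSectionVars false
attribute [-instance] AddSubgroupClass.instZModModule

namespace Cfsg.Agent.MaxSub.CSixSp

/-- A nondegenerate quadratic space of minus type over the field with two elements. -/
structure QS (E : Type*) [AddCommGroup E] [Module (ZMod 2) E] where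
  B : LinearMap.BilinForm (ZMod 2) E
  q : E → ZMod 2
  q_add : ∀ x y, q (x + y) = q x + q y + B x y
  nondeg : ∀ x, (∀ y, B x y = 0) → x = 0
  k : ℕ
  dim : Module.finrank (ZMod 2) E = 2 * k
  ts : ∀ U : Submodule (ZMod 2) E, (∀ u ∈ U, q u = 0) → Module.finrank (ZMod 2) U < k

lemma zmod2_cases (a : ZMod 2) : a = 0 ∨ a = 1 := by revert a; decide

lemma zmod2_ne_one {a : ZMod 2} : a ≠ 1 ↔ a = 0 := by revert a; decide

lemma zmod2_ne_zero {a : ZMod 2} : a ≠ 0 ↔ a = 1 := by revert a; decide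

namespace QS

variable {E : Type*} [AddCommGroup E] [Module (ZMod 2) E] (Q : QS E)

lemma add_self (x : E) : x + x = 0 := ZModModule.add_self x

lemma add_cancel_left' (x y : E) : x + (x + y) = y := by rw [← add_assoc, add_self, zero_add]

lemma add_cancel_right' (x y : E) : x + y + y = x := by rw [add_assoc, add_self, add_zero]

lemma q_zero : Q.q 0 = 0 := by
  have h := Q.q_add 0 0
  rw [add_zero, map_zero, add_zero, CharTwo.add_self_eq_zero] at h
  exact h

lemma B_self (x : E) : Q.B x x = 0 := by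
  have h := Q.q_add x x
  rwa [add_self, Q.q_zero, CharTwo.add_self_eq_zero, zero_add, eq_comm] at h

lemma B_comm (x y : E) : Q.B x y = Q.B y x := by
  have h1 := Q.q_add x y
  have h2 := Q.q_add y x
  rw [add_comm y x, h1, add_comm (Q.q y) (Q.q x)] at h2
  exact add_left_cancel h2

lemma ne_zero_of_q {x : E} (h : Q.q x = 1) : x ≠ 0 := fun h0 => by
  rw [h0, Q.q_zero] at h
  exact zero_ne_one h

lemma exists_B_eq_one {x : E} (hx : x ≠ 0) : ∃ y, Q.B x y = 1 := by
  by_contra h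
  push Not at h
  exact hx (Q.nondeg x fun y => zmod2_ne_one.1 (h y))

lemma exists_vals {x y : E} (hx : x ≠ 0) (hy : y ≠ 0) (hxy : x ≠ y) (u v : ZMod 2) :
    ∃ c, Q.B x c = u ∧ Q.B y c = v := by
  have hs : x + y ≠ 0 := fun h => hxy (by rw [← add_cancel_right' x y, h, zero_add])
  obtain ⟨c₁, h₁⟩ := Q.exists_B_eq_one hx
  obtain ⟨c₂, h₂⟩ := Q.exists_B_eq_one hy
  obtain ⟨c₃, h₃⟩ := Q.exists_B_eq_one hs
  rw [map_add, LinearMap.add_apply] at h₃
  have key : ∀ a b c d e : ZMod 2, d + e = 1 →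
      ∃ r s t : ZMod 2, r * 1 + s * b + t * d = u ∧ r * a + s * 1 + t * e = v := by
    revert u v; decide
  obtain ⟨r, s, t, hu, hv⟩ := key (Q.B y c₁) (Q.B x c₂) 0 _ _ h₃
  exact ⟨r • c₁ + s • c₂ + t • c₃, by simp [h₁, ← hu], by simp [h₂, ← hv]⟩

section Dim

variable [Finite E]

lemma finite_dim : Module.Finite (ZMod 2) E := Module.Finite.of_finite

lemma finrank_inf_ker (U : Submodule (ZMod 2) E) (φ : E →ₗ[ZMod 2] ZMod 2) :
    Module.finrank (ZMod 2) U ≤ Module.finrank (ZMod 2) ↥(U ⊓ LinearMap.ker φ) + 1 := by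
  have h := (φ.comp U.subtype).finrank_range_add_finrank_ker
  have h1 : Module.finrank (ZMod 2) (LinearMap.range (φ.comp U.subtype)) ≤ 1 :=
    (Submodule.finrank_le _).trans (le_of_eq (Module.finrank_self _))
  have h2 : Module.finrank (ZMod 2) (LinearMap.ker (φ.comp U.subtype)) =
      Module.finrank (ZMod 2) ↥(U ⊓ LinearMap.ker φ) := by
    rw [← Submodule.finrank_map_subtype_eq, LinearMap.ker_comp, Submodule.map_comap_subtype]
  omega

lemma finrank_top_eq : Module.finrank (ZMod 2) (⊤ : Submodule (ZMod 2) E) = 2 * Q.k := by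
  rw [finrank_top, Q.dim]

/-- The orthogonal of a vector. -/
abbrev perp (x : E) : Submodule (ZMod 2) E := LinearMap.ker (Q.B x)

lemma mem_perp {x y : E} : y ∈ Q.perp x ↔ Q.B x y = 0 := LinearMap.mem_ker

lemma finrank_inf_perp (U : Submodule (ZMod 2) E) (x : E) :
    Module.finrank (ZMod 2) U ≤ Module.finrank (ZMod 2) ↥(U ⊓ Q.perp x) + 1 :=
  finrank_inf_ker U (Q.B x)

lemma le_finrank_perp (x : E) : 2 * Q.k ≤ Module.finrank (ZMod 2) (Q.perp x) + 1 := by
  have h := finrank_inf_ker (⊤ : Submodule (ZMod 2) E) (Q.B x)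
  rw [top_inf_eq, Q.finrank_top_eq] at h
  exact h

lemma le_finrank_perp₂ (x y : E) :
    2 * Q.k ≤ Module.finrank (ZMod 2) ↥(Q.perp x ⊓ Q.perp y) + 2 := by
  have h := Q.finrank_inf_perp (Q.perp x) y
  have := Q.le_finrank_perp x
  omega

lemma exists_ne_zero_mem {U : Submodule (ZMod 2) E} (h : 1 ≤ Module.finrank (ZMod 2) U) :
    ∃ x ∈ U, x ≠ 0 := by
  refine Submodule.exists_mem_ne_zero_of_ne_bot fun h0 => ?_
  rw [h0, finrank_bot] at h
  omega

lemma exists_mem_ne {U : Submodule (ZMod 2) E} (h : 2 ≤ Module.finrank (ZMod 2) U) (p : E) :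
    ∃ x ∈ U, x ≠ 0 ∧ x ≠ p := by
  by_contra hc
  push Not at hc
  have hle : U ≤ Submodule.span (ZMod 2) {p} := fun x hx => by
    by_cases h0 : x = 0
    · exact h0 ▸ Submodule.zero_mem _
    · rw [hc x hx h0]; exact Submodule.mem_span_singleton_self _
  have := (Submodule.finrank_mono hle).trans (finrank_span_le_card ({p} : Set E))
  simp at this
  omega

lemma two_le_finrank {U : Submodule (ZMod 2) E} {x y : E} (hx : x ∈ U) (hy : y ∈ U) (hx0 : x ≠ 0)
    (hy0 : y ≠ 0) (hxy : x ≠ y) : 2 ≤ Module.finrank (ZMod 2) U := by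
  have hlt : Submodule.span (ZMod 2) {x} < U := by
    refine lt_of_le_of_ne ((Submodule.span_singleton_le_iff_mem x U).2 hx) fun h => ?_
    obtain ⟨c, hc⟩ := Submodule.mem_span_singleton.1 (h ▸ hy)
    rcases zmod2_cases c with rfl | rfl
    · exact hy0 (by rw [← hc, zero_smul])
    · exact hxy (by rw [← hc, one_smul])
  have := Submodule.finrank_lt_finrank_of_lt hlt
  rw [finrank_span_singleton hx0] at this
  omega

/-- A coset of a subspace of dimension above `k - 1` contains a nonsingular vector. -/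
lemma exists_q_one {P : Submodule (ZMod 2) E} (hP : Q.k ≤ Module.finrank (ZMod 2) P) {c : E}
    (hc : c ∉ P) : ∃ d ∈ P, Q.q (c + d) = 1 := by
  by_contra hcon
  push Not at hcon
  simp only [zmod2_ne_one] at hcon
  have hqc : Q.q c = 0 := by simpa using hcon 0 (Submodule.zero_mem _)
  have hlin : ∀ d ∈ P, Q.B c d = 0 → Q.q d = 0 := fun d hd h => by
    have := hcon d hd
    rwa [Q.q_add, hqc, h, zero_add, add_zero] at this
  set W := P ⊓ LinearMap.ker (Q.B c) with hW
  have hTS : ∀ u ∈ W ⊔ Submodule.span (ZMod 2) {c}, Q.q u = 0 := by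
    intro u hu
    obtain ⟨d, hd, e, he, rfl⟩ := Submodule.mem_sup.1 hu
    obtain ⟨t, rfl⟩ := Submodule.mem_span_singleton.1 he
    rcases zmod2_cases t with rfl | rfl
    · rw [zero_smul, add_zero]; exact hlin d hd.1 hd.2
    · rw [one_smul, add_comm]; exact hcon d hd.1
  have hlt : W < W ⊔ Submodule.span (ZMod 2) {c} := by
    refine lt_of_le_of_ne le_sup_left fun h => hc ?_
    have : c ∈ W := by rw [h]; exact Submodule.mem_sup_right (Submodule.mem_span_singleton_self c)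
    exact this.1
  have := Submodule.finrank_lt_finrank_of_lt hlt
  have := finrank_inf_ker P (Q.B c)
  have := Q.ts _ hTS
  rw [← hW] at *
  omega

/-- A coset of a subspace of dimension above `k` takes both values. -/
lemma exists_q_eq {P : Submodule (ZMod 2) E} (hP : Q.k + 1 ≤ Module.finrank (ZMod 2) P) (c : E)
    (v : ZMod 2) : ∃ d ∈ P, Q.q (c + d) = v := by
  by_contra hcon
  push Not at hcon
  have hc0 : Q.q c ≠ v := by simpa using hcon 0 (Submodule.zero_mem _)
  have hTS : ∀ u ∈ P ⊓ LinearMap.ker (Q.B c), Q.q u = 0 := by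
    rintro u ⟨hu, hu'⟩
    have h := hcon u hu
    rw [Q.q_add, LinearMap.mem_ker.1 hu', add_zero] at h
    have key : ∀ a b w : ZMod 2, a ≠ w → a + b ≠ w → b = 0 := by decide
    exact key _ _ _ hc0 h
  have := Q.ts _ hTS
  have := finrank_inf_ker P (Q.B c)
  omega

lemma exists_perp_q (hk : 2 ≤ Q.k) (x : E) (v : ZMod 2) : ∃ y, Q.B x y = 0 ∧ Q.q y = v := by
  have := Q.le_finrank_perp x
  obtain ⟨d, hd, hq⟩ := Q.exists_q_eq (P := Q.perp x) (by omega) 0 v
  exact ⟨d, hd, by simpa using hq⟩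

lemma exists_B_q (hk : 2 ≤ Q.k) {x : E} (hx : x ≠ 0) (v : ZMod 2) :
    ∃ y, Q.B x y = 1 ∧ Q.q y = v := by
  obtain ⟨c, hc⟩ := Q.exists_B_eq_one hx
  have := Q.le_finrank_perp x
  obtain ⟨d, hd, hq⟩ := Q.exists_q_eq (P := Q.perp x) (by omega) c v
  exact ⟨c + d, by rw [map_add, Q.mem_perp.1 hd, hc, add_zero], hq⟩

/-- Vectors with prescribed products and values. -/
lemma exists_vals_q (hk : 3 ≤ Q.k) {x y : E} (hx : x ≠ 0) (hy : y ≠ 0) (hxy : x ≠ y)
    (u v w : ZMod 2) : ∃ c, Q.B x c = u ∧ Q.B y c = v ∧ Q.q c = w := by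
  obtain ⟨c, h₁, h₂⟩ := Q.exists_vals hx hy hxy u v
  have := Q.le_finrank_perp₂ x y
  obtain ⟨d, hd, hq⟩ := Q.exists_q_eq (P := Q.perp x ⊓ Q.perp y) (by omega) c w
  exact ⟨c + d, by rw [map_add, Q.mem_perp.1 hd.1, h₁, add_zero],
    by rw [map_add, Q.mem_perp.1 hd.2, h₂, add_zero], hq⟩

lemma exists_vals_one (hk : 2 ≤ Q.k) {x y : E} (hx : x ≠ 0) (hy : y ≠ 0) (hxy : x ≠ y)
    {u v : ZMod 2} (huv : u = 1 ∨ v = 1) : ∃ c, Q.B x c = u ∧ Q.B y c = v ∧ Q.q c = 1 := by
  obtain ⟨c, h₁, h₂⟩ := Q.exists_vals hx hy hxy u v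
  have hc : c ∉ Q.perp x ⊓ Q.perp y := by
    rintro ⟨e₁, e₂⟩
    rw [SetLike.mem_coe, Q.mem_perp, h₁] at e₁
    rw [SetLike.mem_coe, Q.mem_perp, h₂] at e₂
    rcases huv with h | h
    · exact zero_ne_one (e₁.symm.trans h)
    · exact zero_ne_one (e₂.symm.trans h)
  have := Q.le_finrank_perp₂ x y
  obtain ⟨d, hd, hq⟩ := Q.exists_q_one (by omega) hc
  exact ⟨c + d, by rw [map_add, Q.mem_perp.1 hd.1, h₁, add_zero],
    by rw [map_add, Q.mem_perp.1 hd.2, h₂, add_zero], hq⟩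

end Dim

/-- The symmetry along `y`. -/
def T (y : E) : E ≃ₗ[ZMod 2] E :=
  LinearEquiv.ofInvolutive
    ((LinearMap.id : E →ₗ[ZMod 2] E) + LinearMap.smulRight (Q.B y) y) fun a => by
    simp [Q.B_self, add_assoc, add_self]

@[simp] lemma T_apply (y a : E) : Q.T y a = a + Q.B y a • y := rfl

lemma T_mul_self (y : E) : Q.T y * Q.T y = 1 := by
  ext a
  show Q.T y (Q.T y a) = a
  simp [Q.B_self, add_assoc, add_self]

lemma T_inv (y : E) : (Q.T y)⁻¹ = Q.T y := inv_eq_of_mul_eq_one_left (Q.T_mul_self y)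

lemma T_apply_of_perp {y a : E} (h : Q.B y a = 0) : Q.T y a = a := by simp [h]

lemma T_apply_of_one {y a : E} (h : Q.B y a = 1) : Q.T y a = a + y := by simp [h]

lemma q_T {y : E} (hy : Q.q y = 1) (a : E) : Q.q (Q.T y a) = Q.q a := by
  rcases zmod2_cases (Q.B y a) with h | h
  · rw [Q.T_apply_of_perp h]
  · rw [Q.T_apply_of_one h, Q.q_add, hy, Q.B_comm, h, add_assoc, CharTwo.add_self_eq_zero,
      add_zero]

lemma B_of_iso {f : E ≃ₗ[ZMod 2] E} (hf : ∀ a, Q.q (f a) = Q.q a) (a b : E) :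
    Q.B (f a) (f b) = Q.B a b := by
  have h1 := Q.q_add (f a) (f b)
  rw [← map_add, hf, hf, hf, Q.q_add] at h1
  exact (add_left_cancel h1).symm

lemma conj_T {f : E ≃ₗ[ZMod 2] E} (hf : ∀ a, Q.q (f a) = Q.q a) (y : E) :
    f * Q.T y * f⁻¹ = Q.T (f y) := by
  ext a
  show f (Q.T y (f.symm a)) = Q.T (f y) a
  conv_rhs => rw [← f.apply_symm_apply a]
  simp only [T_apply, map_add, map_smul, Q.B_of_iso hf]

section Orbit

variable [Finite E]

/-- Orbits of products of two symmetries on the nonzero vectors. -/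
theorem orbit (hk : 2 ≤ Q.k) (S : Set E)
    (hS : ∀ a ∈ S, ∀ y z, Q.q y = 1 → Q.q z = 1 → Q.T y (Q.T z a) ∈ S)
    {a b : E} (ha : a ∈ S) (ha0 : a ≠ 0) (hb0 : b ≠ 0) (hab : Q.q a = Q.q b) : b ∈ S := by
  have step : ∀ a ∈ S, ∀ b, Q.q a = Q.q b → Q.B a b = 1 → b ∈ S := by
    intro a ha b hab h
    obtain ⟨z, hz, hqz⟩ := Q.exists_perp_q hk a 1
    have hy : Q.q (a + b) = 1 := by rw [Q.q_add, hab, h, CharTwo.add_self_eq_zero, zero_add]
    have := hS a ha (a + b) z hy hqz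
    rwa [Q.T_apply_of_perp (a := a) (y := z) (by rw [Q.B_comm, hz]),
      Q.T_apply_of_one (by rw [map_add, LinearMap.add_apply, Q.B_self, Q.B_comm, h, zero_add]),
      add_cancel_left'] at this
  by_cases hne : a = b
  · exact hne ▸ ha
  rcases zmod2_cases (Q.B a b) with h | h
  · obtain ⟨c, hc₁, hc₂, hcq⟩ : ∃ c, Q.B a c = 1 ∧ Q.B b c = 1 ∧ Q.q c = Q.q a := by
      rcases zmod2_cases (Q.q a) with hq | hq
      · obtain ⟨c, h₁, h₂⟩ := Q.exists_vals ha0 hb0 hne 1 1
        rcases zmod2_cases (Q.q c) with hqc | hqc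
        · exact ⟨c, h₁, h₂, by rw [hqc, hq]⟩
        · refine ⟨c + a, by rw [map_add, h₁, Q.B_self, add_zero],
            by rw [map_add, h₂, Q.B_comm b a, h, add_zero], ?_⟩
          rw [Q.q_add, hqc, hq, Q.B_comm, h₁]
          decide
      · obtain ⟨c, h₁, h₂, h₃⟩ := Q.exists_vals_one hk ha0 hb0 hne (u := 1) (v := 1) (Or.inl rfl)
        exact ⟨c, h₁, h₂, by rw [h₃, hq]⟩
    exact step c (step a ha c hcq.symm hc₁) b (hcq.trans hab) (by rw [Q.B_comm, hc₂])
  · exact step a ha b hab h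

lemma eq_top_of_nonsingular (hk : 2 ≤ Q.k) (U : Submodule (ZMod 2) E)
    (hU : ∀ y, Q.q y = 1 → y ∈ U) : U = ⊤ := by
  refine eq_top_iff.2 fun b _ => ?_
  by_cases hb : b = 0
  · exact hb ▸ U.zero_mem
  rcases zmod2_cases (Q.q b) with h | h
  · obtain ⟨c, hc, hqc⟩ := Q.exists_perp_q hk b 1
    rw [← add_cancel_right' b c]
    exact U.add_mem (hU _ (by rw [Q.q_add, h, hqc, hc]; decide)) (hU c hqc)
  · exact hU b h

/-- Irreducibility of the products of two symmetries. -/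
theorem irred (hk : 2 ≤ Q.k) (U : Submodule (ZMod 2) E)
    (hU : ∀ a ∈ U, ∀ y z, Q.q y = 1 → Q.q z = 1 → Q.T y (Q.T z a) ∈ U) : U = ⊥ ∨ U = ⊤ := by
  refine or_iff_not_imp_left.2 fun hne => ?_
  obtain ⟨a, ha, ha0⟩ := Submodule.exists_mem_ne_zero_of_ne_bot hne
  have hsame : ∀ b, b ≠ 0 → Q.q b = Q.q a → b ∈ U := fun b hb hq =>
    Q.orbit hk U hU ha ha0 hb hq.symm
  refine Q.eq_top_of_nonsingular hk U fun y hy => ?_
  rcases zmod2_cases (Q.q a) with h | h
  · obtain ⟨c, hc, hqc⟩ := Q.exists_B_q hk (Q.ne_zero_of_q hy) 0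
    have hc0 : c ≠ 0 := fun h0 => by rw [h0, map_zero] at hc; exact zero_ne_one hc
    rw [← add_cancel_right' y c]
    refine U.add_mem (hsame _ (fun h0 => ?_) ?_) (hsame c hc0 (by rw [hqc, h]))
    · have : y = c := by rw [← add_cancel_right' y c, h0, zero_add]
      rw [this, hqc] at hy
      exact zero_ne_one hy
    · rw [h, Q.q_add, hy, hqc, hc]; decide
  · exact hsame y (Q.ne_zero_of_q hy) (by rw [hy, h])

end Orbit

section Subgroups

variable [Finite E] {Ω : Subgroup (E ≃ₗ[ZMod 2] E)}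

/-- `Ω` consists of isometries and is normalised by the products of two symmetries. -/
structure TNormal (Ω : Subgroup (E ≃ₗ[ZMod 2] E)) : Prop where
  iso : ∀ ω ∈ Ω, ∀ a, Q.q (ω a) = Q.q a
  conj : ∀ ω ∈ Ω, ∀ y z, Q.q y = 1 → Q.q z = 1 →
    (Q.T y * Q.T z) * ω * (Q.T y * Q.T z)⁻¹ ∈ Ω

/-- `Ω` contains a product of two non-commuting symmetries. -/
def HasTT (Ω : Subgroup (E ≃ₗ[ZMod 2] E)) : Prop :=
  ∃ a b, Q.q a = 1 ∧ Q.q b = 1 ∧ Q.B a b = 1 ∧ Q.T a * Q.T b ∈ Ω

variable (hk : 2 ≤ Q.k) (hΩ : Q.TNormal Ω)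

include hΩ in
lemma commutator_mem {ω : E ≃ₗ[ZMod 2] E} (hω : ω ∈ Ω) {y z : E} (hy : Q.q y = 1)
    (hz : Q.q z = 1) : Q.T (ω y) * Q.T (ω z) * Q.T z * Q.T y ∈ Ω := by
  have h := Ω.mul_mem hω (hΩ.conj ω⁻¹ (Ω.inv_mem hω) y z hy hz)
  have e : ω * (Q.T y * Q.T z * ω⁻¹ * (Q.T y * Q.T z)⁻¹) =
      (ω * Q.T y * ω⁻¹) * (ω * Q.T z * ω⁻¹) * Q.T z * Q.T y := by
    rw [mul_inv_rev, Q.T_inv, Q.T_inv]
    group
  rwa [e, Q.conj_T (hΩ.iso ω hω), Q.conj_T (hΩ.iso ω hω)] at h

include hk hΩ in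
lemma hasTT_of_ne {a b : E} (ha : Q.q a = 1) (hb : Q.q b = 1) (hab : a ≠ b)
    (h : Q.T a * Q.T b ∈ Ω) : Q.HasTT Ω := by
  rcases zmod2_cases (Q.B a b) with h0 | h1
  · obtain ⟨y, hya, hyb, hy⟩ := Q.exists_vals_one hk (Q.ne_zero_of_q ha) (Q.ne_zero_of_q hb) hab
      (u := 0) (v := 1) (Or.inr rfl)
    have hτ : ∀ x, Q.q ((Q.T y * Q.T a) x) = Q.q x := fun x =>
      (Q.q_T hy _).trans (Q.q_T ha x)
    have hτa : (Q.T y * Q.T a) a = a := by
      show Q.T y (Q.T a a) = a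
      rw [Q.T_apply_of_perp (Q.B_self a), Q.T_apply_of_perp (by rw [Q.B_comm, hya])]
    have hτb : (Q.T y * Q.T a) b = b + y := by
      show Q.T y (Q.T a b) = b + y
      rw [Q.T_apply_of_perp h0, Q.T_apply_of_one (by rw [Q.B_comm, hyb])]
    have hc := hΩ.conj _ h y a hy ha
    have e : (Q.T y * Q.T a) * (Q.T a * Q.T b) * (Q.T y * Q.T a)⁻¹ = Q.T a * Q.T (b + y) := by
      conv_rhs => rw [← hτa, ← hτb, ← Q.conj_T hτ, ← Q.conj_T hτ]
      group
    rw [e] at hc
    have h2 := Ω.mul_mem (Ω.inv_mem h) hc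
    rw [mul_inv_rev, Q.T_inv, Q.T_inv, mul_assoc, ← mul_assoc (Q.T a) (Q.T a), Q.T_mul_self,
      one_mul] at h2
    exact ⟨b, b + y, hb, by rw [Q.q_add, hb, hy, hyb]; decide,
      by rw [map_add, Q.B_self, hyb, zero_add], h2⟩
  · exact ⟨a, b, ha, hb, h1, h⟩

include hk hΩ in
lemma hasTT_of_fixed {ω : E ≃ₗ[ZMod 2] E} (hω : ω ∈ Ω) (hne : ω ≠ 1) {y : E} (hy : Q.q y = 1)
    (hfix : ω y = y) : Q.HasTT Ω := by
  obtain ⟨z, hz, hzm⟩ : ∃ z, Q.q z = 1 ∧ ω z ≠ z := by
    by_contra hcon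
    push Not at hcon
    apply hne
    have := Q.eq_top_of_nonsingular hk (LinearMap.ker (ω.toLinearMap - LinearMap.id))
      fun z hz => by simp [hcon z hz]
    ext a
    have ha : a ∈ LinearMap.ker (ω.toLinearMap - LinearMap.id) := this ▸ Submodule.mem_top
    simpa [sub_eq_zero] using ha
  have h := Q.commutator_mem hΩ hω hy hz
  have e : Q.T y * Q.T (ω z) * Q.T z * Q.T y = Q.T (Q.T y (ω z)) * Q.T (Q.T y z) := by
    rw [← Q.conj_T (Q.q_T hy), ← Q.conj_T (Q.q_T hy), Q.T_inv]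
    simp only [mul_assoc]
    rw [← mul_assoc (Q.T y) (Q.T y) (Q.T z * Q.T y), Q.T_mul_self, one_mul]
  rw [hfix, e] at h
  refine Q.hasTT_of_ne hk hΩ ?_ ?_ ?_ h
  · rw [Q.q_T hy, hΩ.iso ω hω, hz]
  · rw [Q.q_T hy, hz]
  · exact fun he => hzm ((Q.T y).injective he)

include hk hΩ in
/-- An element of prime order is either enough, or behaves like a scalar of order three. -/
lemma hasTT_or_bad {ω : E ≃ₗ[ZMod 2] E} (hω : ω ∈ Ω) (hp : (orderOf ω).Prime) :
    Q.HasTT Ω ∨ ∀ a, ω (ω a) = a + ω a := by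
  have hne : ω ≠ 1 := fun h => by rw [h, orderOf_one] at hp; exact Nat.not_prime_one hp
  refine or_iff_not_imp_left.2 fun hno => ?_
  have nofix : ∀ y, Q.q y = 1 → ω y ≠ y := fun y hy h =>
    hno (Q.hasTT_of_fixed hk hΩ hω hne hy h)
  have hiso := hΩ.iso ω hω
  rcases hp.eq_two_or_odd' with h2 | hodd
  · exfalso
    have hsq : ∀ a, ω (ω a) = a := fun a => by
      have := pow_orderOf_eq_one ω
      rw [h2, pow_two] at this
      exact congrArg (fun f : E ≃ₗ[ZMod 2] E => f a) this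
    let ψ : E →ₗ[ZMod 2] E := ω.toLinearMap + LinearMap.id
    have hker : LinearMap.range ψ ≤ LinearMap.ker ψ := by
      rintro _ ⟨a, rfl⟩
      simp only [LinearMap.mem_ker, ψ, LinearMap.add_apply, LinearEquiv.coe_coe,
        LinearMap.id_apply, map_add, hsq]
      rw [add_comm a (ω a), add_self]
    have h1 := ψ.finrank_range_add_finrank_ker
    have h3 := Submodule.finrank_mono hker
    rw [Q.dim] at h1
    have hts := Q.ts (LinearMap.ker ψ) fun u hu => zmod2_ne_one.1 fun hq => nofix u hq (by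
      rw [LinearMap.mem_ker] at hu
      simp only [ψ, LinearMap.add_apply, LinearEquiv.coe_coe, LinearMap.id_apply] at hu
      rw [← add_cancel_right' (ω u) u, hu, zero_add])
    omega
  have key : ∀ y, Q.q y = 1 → ω (ω y) = y + ω y := by
    intro y hy
    set z := ω⁻¹ y with hz
    have hzq : Q.q z = 1 := by rw [hz, hΩ.iso _ (Ω.inv_mem hω), hy]
    have hωz : ω z = y := ω.apply_symm_apply y
    have h := Q.commutator_mem hΩ hω hy hzq
    have e : Q.T (ω y) * Q.T y * Q.T z * Q.T y = Q.T (ω y) * Q.T (Q.T y z) := by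
      rw [← Q.conj_T (Q.q_T hy), Q.T_inv]
      simp only [mul_assoc]
    rw [hωz, e] at h
    have heq : ω y = Q.T y z := by
      by_contra hd
      exact hno (Q.hasTT_of_ne hk hΩ (by rw [hiso, hy]) (by rw [Q.q_T hy, hzq]) hd h)
    have h' : ω (ω y) = ω z + Q.B y z • ω y := by
      conv_lhs => rw [heq]
      rw [T_apply, map_add, map_smul]
    rw [hωz, ← Q.B_of_iso hiso, hωz] at h'
    rcases zmod2_cases (Q.B (ω y) y) with hb | hb
    · exfalso
      rw [hb, zero_smul, add_zero] at h'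
      refine nofix y hy ?_
      obtain ⟨j, hj⟩ := hodd
      have hev : ∀ i, (ω ^ (2 * i)) y = y := by
        intro i
        induction i with
        | zero => rfl
        | succ i ih =>
          rw [Nat.mul_succ, pow_add, pow_two]
          show (ω ^ (2 * i)) (ω (ω y)) = y
          rw [h', ih]
      have := hev (j + 1)
      rwa [show 2 * (j + 1) = orderOf ω + 1 by omega, pow_succ, pow_orderOf_eq_one, one_mul] at this
    · rwa [hb, one_smul] at h'
  have htop := Q.eq_top_of_nonsingular hk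
    (LinearMap.ker (ω.toLinearMap.comp ω.toLinearMap - LinearMap.id - ω.toLinearMap))
    fun y hy => by simp [key y hy]
  intro a
  have ha : a ∈ LinearMap.ker (ω.toLinearMap.comp ω.toLinearMap - LinearMap.id - ω.toLinearMap) :=
    htop ▸ Submodule.mem_top
  simp only [LinearMap.mem_ker, LinearMap.sub_apply, LinearMap.comp_apply, LinearEquiv.coe_coe,
    LinearMap.id_apply, sub_sub, sub_eq_zero] at ha
  exact ha

include hk hΩ in
lemma hasTT_of_fixed_vector {C : E ≃ₗ[ZMod 2] E} (hC : C ∈ Ω) (hne : C ≠ 1) {a : E} (ha : a ≠ 0)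
    (hfix : C a = a) : Q.HasTT Ω := by
  set n := orderOf C with hn
  have hn1 : n ≠ 1 := fun h => hne (orderOf_eq_one_iff.1 h)
  obtain ⟨l, hl, hld⟩ := Nat.exists_prime_and_dvd hn1
  have hfin : Finite (E ≃ₗ[ZMod 2] E) := DFunLike.finite _
  have hn0 : 0 < n := orderOf_pos C
  have hord : orderOf (C ^ (n / l)) = l := orderOf_pow_orderOf_div hn0.ne' hld
  rcases Q.hasTT_or_bad hk hΩ (Ω.pow_mem hC _) (hord ▸ hl) with h | h
  · exact h
  exfalso
  have hfix' : ∀ i : ℕ, (C ^ i) a = a := by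
    intro i
    induction i with
    | zero => rfl
    | succ i ih => rw [pow_succ]; show (C ^ i) (C a) = a; rw [hfix, ih]
  have h' := h a
  rw [hfix', hfix', add_self] at h'
  exact ha h'

include hk hΩ in
/-- A nontrivial normalised subgroup contains a product of two non-commuting symmetries. -/
theorem hasTT (hne : Ω ≠ ⊥) : Q.HasTT Ω := by
  obtain ⟨⟨C, hC⟩, hC1'⟩ := Subgroup.ne_bot_iff_exists_ne_one.1 hne
  have hC1 : C ≠ 1 := fun h => hC1' (Subtype.ext h)
  have hfin : Finite (E ≃ₗ[ZMod 2] E) := DFunLike.finite _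
  obtain ⟨l, hl, hld⟩ := Nat.exists_prime_and_dvd (fun h => hC1 (orderOf_eq_one_iff.1 h) :
    orderOf C ≠ 1)
  have hord := orderOf_pow_orderOf_div (orderOf_pos C).ne' hld
  set ω := C ^ (orderOf C / l)
  have hω : ω ∈ Ω := Ω.pow_mem hC _
  rcases Q.hasTT_or_bad hk hΩ hω (hord ▸ hl) with h | hbad
  · exact h
  have hiso := hΩ.iso ω hω
  have hB : ∀ a, Q.B a (ω a) = Q.q a := fun a => by
    have h1 := Q.q_add a (ω a)
    rw [← hbad, hiso, hiso, CharTwo.add_self_eq_zero, zero_add] at h1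
    exact h1.symm
  have nofix : ∀ a, ω a = a → a = 0 := fun a h => by
    have := hbad a
    rw [h, h, add_self] at this
    exact this
  obtain ⟨y, -, hy⟩ := Q.exists_perp_q hk 0 1
  by_cases hk3 : 3 ≤ Q.k
  · obtain ⟨z, hz, hzy, hzq⟩ : ∃ z, Q.B y z = 0 ∧ z ≠ y ∧ Q.q z = 1 := by
      obtain ⟨w, hw⟩ := Q.exists_B_eq_one (Q.ne_zero_of_q hy)
      have hw0 : w ≠ 0 := fun h0 => by rw [h0, map_zero] at hw; exact zero_ne_one hw
      obtain ⟨z, h1, h2, h3⟩ := Q.exists_vals_q hk3 (Q.ne_zero_of_q hy) hw0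
        (fun e => by rw [← e, Q.B_self] at hw; exact zero_ne_one hw) 0 0 1
      exact ⟨z, h1, fun e => by rw [e, Q.B_comm, hw] at h2; exact one_ne_zero h2, h3⟩
    have hm := Q.commutator_mem hΩ hω hy hzq
    by_cases hC : Q.T (ω y) * Q.T (ω z) * Q.T z * Q.T y = 1
    · exfalso
      have he : Q.T (ω y) * Q.T (ω z) = Q.T y * Q.T z := by
        rw [mul_eq_one_iff_eq_inv, Q.T_inv] at hC
        rw [eq_mul_inv_of_mul_eq hC, Q.T_inv]
      obtain ⟨a, ha1, ha2⟩ := Q.exists_vals (x := ω y) (y := ω z)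
        (fun h => Q.ne_zero_of_q hy ((LinearEquiv.map_eq_zero_iff ω).1 h))
        (fun h => Q.ne_zero_of_q hzq ((LinearEquiv.map_eq_zero_iff ω).1 h))
        (fun h => hzy (ω.injective h).symm) 1 0
      have hev := congrArg (fun f : E ≃ₗ[ZMod 2] E => f a) he
      change Q.T (ω y) (Q.T (ω z) a) = Q.T y (Q.T z a) at hev
      rw [Q.T_apply_of_perp ha2, Q.T_apply_of_one ha1, T_apply, T_apply, map_add, map_smul,
        hz, smul_zero, add_zero, add_assoc] at hev
      have hev' : ω y = Q.B z a • z + Q.B y a • y := add_left_cancel hev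
      have hyy : Q.B y (ω y) = 1 := by rw [hB, hy]
      rw [hev', map_add, map_smul, map_smul, hz, Q.B_self, smul_zero, smul_zero, add_zero] at hyy
      exact zero_ne_one hyy
    · have h4 : 1 ≤ Module.finrank (ZMod 2)
          ↥(Q.perp (ω y) ⊓ Q.perp (ω z) ⊓ Q.perp z ⊓ Q.perp y) := by
        have := Q.le_finrank_perp₂ (ω y) (ω z)
        have := Q.finrank_inf_perp (Q.perp (ω y) ⊓ Q.perp (ω z)) z
        have := Q.finrank_inf_perp (Q.perp (ω y) ⊓ Q.perp (ω z) ⊓ Q.perp z) y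
        omega
      obtain ⟨a, ⟨⟨⟨a1, a2⟩, a3⟩, a4⟩, ha0⟩ := exists_ne_zero_mem h4
      refine Q.hasTT_of_fixed_vector hk hΩ hm hC ha0 ?_
      show Q.T (ω y) (Q.T (ω z) (Q.T z (Q.T y a))) = a
      rw [Q.T_apply_of_perp a4, Q.T_apply_of_perp a3, Q.T_apply_of_perp a2, Q.T_apply_of_perp a1]
  · exfalso
    have hk2 : Q.k = 2 := by omega
    have hyy : Q.B y (ω y) = 1 := by rw [hB, hy]
    obtain ⟨y₂, ⟨h1, h2⟩, hy₂⟩ : ∃ y₂ ∈ Q.perp y ⊓ Q.perp (ω y), Q.q y₂ = 1 := by
      by_contra hcon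
      push Not at hcon
      have := Q.ts _ fun u hu => zmod2_ne_one.1 (hcon u hu)
      have := Q.le_finrank_perp₂ y (ω y)
      omega
    rw [SetLike.mem_coe, Q.mem_perp] at h1 h2
    set u := y + y₂ with hu
    have hqu : Q.q u = 0 := by rw [hu, Q.q_add, hy, hy₂, h1]; decide
    have hu0 : u ≠ 0 := fun h0 => by
      have : y = y₂ := by rw [← add_cancel_right' y y₂, ← hu, h0, zero_add]
      rw [← this, Q.B_comm, hyy] at h2
      exact one_ne_zero h2
    have hne' : ω u ≠ u := fun h => hu0 (nofix u h)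
    have hts := Q.ts (Submodule.span (ZMod 2) {u, ω u}) fun w hw => by
      rw [Submodule.mem_span_pair] at hw
      obtain ⟨r, s, rfl⟩ := hw
      rcases zmod2_cases r with rfl | rfl <;> rcases zmod2_cases s with rfl | rfl <;>
        simp [Q.q_zero, Q.q_add, hqu, hiso, hB]
    have hωu : ω u ≠ 0 := fun h => hu0 ((LinearEquiv.map_eq_zero_iff ω).1 h)
    have := two_le_finrank (U := Submodule.span (ZMod 2) {u, ω u})
      (Submodule.subset_span (Set.mem_insert _ _))
      (Submodule.subset_span (Set.mem_insert_of_mem _ rfl)) hu0 hωu fun h => hne' h.symm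
    omega

end Subgroups

section Perp

variable [Finite E]

/-- A singular vector orthogonal to a non-commuting nonsingular pair. -/
lemma exists_singular_perp_pair (hk : 2 ≤ Q.k) {a b : E} (ha : Q.q a = 1) (hb : Q.q b = 1)
    (hab : Q.B a b = 1) : ∃ ξ, ξ ≠ 0 ∧ Q.q ξ = 0 ∧ Q.B a ξ = 0 ∧ Q.B b ξ = 0 := by
  by_cases hk3 : 3 ≤ Q.k
  · have hab' : a ≠ b := fun h => by rw [h, Q.B_self] at hab; exact zero_ne_one hab
    have := Q.le_finrank_perp₂ a b
    obtain ⟨p, ⟨p1, p2⟩, hp0⟩ := exists_ne_zero_mem (U := Q.perp a ⊓ Q.perp b) (by omega)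
    rw [SetLike.mem_coe, Q.mem_perp] at p1 p2
    rcases zmod2_cases (Q.q p) with hq | hq
    · exact ⟨p, hp0, hq, p1, p2⟩
    have := Q.finrank_inf_perp (Q.perp a ⊓ Q.perp b) p
    obtain ⟨r, ⟨⟨r1, r2⟩, r3⟩, hr0, hrp⟩ := exists_mem_ne
      (U := Q.perp a ⊓ Q.perp b ⊓ Q.perp p) (by omega) p
    rw [SetLike.mem_coe, Q.mem_perp] at r1 r2 r3
    rcases zmod2_cases (Q.q r) with hr | hr
    · exact ⟨r, hr0, hr, r1, r2⟩
    · refine ⟨p + r, fun h => hrp ?_, by rw [Q.q_add, hq, hr, r3]; decide, by simp [p1, r1],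
        by simp [p2, r2]⟩
      rw [← add_cancel_left' p r, h, add_zero]
  · by_contra hcon
    push Not at hcon
    have hP : ∀ p ∈ Q.perp a ⊓ Q.perp b, p ≠ 0 → Q.q p = 1 := fun p hp h0 =>
      zmod2_ne_zero.1 fun hq => hcon p h0 hq hp.1 hp.2
    have := Q.le_finrank_perp₂ a b
    obtain ⟨p, hp, hp0⟩ := exists_ne_zero_mem (U := Q.perp a ⊓ Q.perp b) (by omega)
    obtain ⟨r, hr, hr0, hrp⟩ := exists_mem_ne (U := Q.perp a ⊓ Q.perp b) (by omega) p
    have hpr : Q.B p r = 1 := by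
      have h := hP (p + r) (add_mem hp hr) fun h => hrp (by rw [← add_cancel_left' p r, h, add_zero])
      rw [Q.q_add, hP p hp hp0, hP r hr hr0] at h
      revert h; generalize Q.B p r = x; revert x; decide
    have hap := Q.mem_perp.1 hp.1
    have hbp := Q.mem_perp.1 hp.2
    have har := Q.mem_perp.1 hr.1
    have hbr := Q.mem_perp.1 hr.2
    have hu : Q.q (a + p) = 0 := by rw [Q.q_add, ha, hP p hp hp0, hap]; decide
    have hw : Q.q (b + r) = 0 := by rw [Q.q_add, hb, hP r hr hr0, hbr]; decide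
    have huw : Q.B (a + p) (b + r) = 0 := by
      simp only [map_add, LinearMap.add_apply, hab, har, Q.B_comm p b, hbp, hpr]
      decide
    have hts := Q.ts (Submodule.span (ZMod 2) {a + p, b + r}) fun w hw' => by
      rw [Submodule.mem_span_pair] at hw'
      obtain ⟨s, t, rfl⟩ := hw'
      rcases zmod2_cases s with rfl | rfl <;> rcases zmod2_cases t with rfl | rfl <;>
        simp only [zero_smul, one_smul, zero_add, add_zero, Q.q_zero, Q.q_add (a + p) (b + r),
          hu, hw, huw]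
    have hap0 : a + p ≠ 0 := fun h => by
      have e := congrArg (Q.B b) h
      rw [map_add, map_zero, Q.B_comm b a, hab, hbp, add_zero] at e
      exact one_ne_zero e
    have hbr0 : b + r ≠ 0 := fun h => by
      have e := congrArg (Q.B a) h
      rw [map_add, map_zero, hab, har, add_zero] at e
      exact one_ne_zero e
    have hne : a + p ≠ b + r := fun h => by
      have e := congrArg (Q.B a) h
      rw [map_add, map_add, Q.B_self, hab, hap, har, add_zero, add_zero] at e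
      exact zero_ne_one e
    have := two_le_finrank (U := Submodule.span (ZMod 2) {a + p, b + r})
      (Submodule.subset_span (Set.mem_insert _ _))
      (Submodule.subset_span (Set.mem_insert_of_mem _ rfl)) hap0 hbr0 hne
    omega

end Perp

end QS

end Cfsg.Agent.MaxSub.CSixSp
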