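import Cfsg.Agent.MaxSub.CSixSp.Descent

/-!
The centraliser of a singular element of the frame in a proper overgroup of the normaliser lies in
the normaliser.
-/

set_option autoImplicit false
set_option linter.unusedSectionVars false
attribute [-instance] AddSubgroupClass.instZModModule

namespace Cfsg.Agent.MaxSub.CSixSp

variable {F : Type*} [Field F] [Fintype F] {V : Type*} [AddCommGroup V] [Module F V]
variable {B : LinearMap.BilinForm F V} {S : Frame B}

namespace Frame

variable (S)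

lemma co_ne {a r : S.R} (h : S.cls a ≠ S.cls r) :
    co (a : G F V) ((r : G F V) : Module.End F V) = 0 :=
  S.co_eq_zero a.2 r.2 (fun e => h (S.cls_eq_iff.2 (Or.inl e)))
    (fun e => h (S.cls_eq_iff.2 (Or.inr e)))

end Frame

namespace Blk

variable (P : Blk S) {M : Subgroup (G F V)}

lemma cls_eq_one_mem {Q : Frame B} {x : Q.R} (h : Q.cls x ≠ 0) : (x : G F V) ≠ 1 ∧ (x : G F V) ≠ -1 :=
  ⟨fun e => h (Q.cls_eq_zero.2 (Or.inl e)), fun e => h (Q.cls_eq_zero.2 (Or.inr e))⟩

/-- A product of two non-commuting symmetries in the image contradicts the normalisation of the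
fixed spaces of the involutions. -/
theorem Omega_eq_bot (hk : 3 ≤ S.k) (hN : S.N0 ≤ M) (hM : M ≤ Sp B) (hKN : P.K M ≤ P.frame.Nm)
    (hproj : ∀ P' : Blk S, ∀ g ∈ M, ∀ hg : g ∈ P'.C, P'.res ⟨g, hg⟩ ∈ P'.frame.Nm) :
    P.Omega M = ⊥ := by
  have hk' : 2 ≤ P.frame.QS'.k := by show 2 ≤ S.k - 1; omega
  have hk'2 : 2 ≤ P.frame.k := hk'
  by_contra hne
  have hT : P.frame.QS'.TNormal (P.Omega M) := by
    refine ⟨?_, ?_⟩
    · rintro _ ⟨g, -, rfl⟩ e
      exact P.frame.qv_act g e
    · rintro _ ⟨g, hg, rfl⟩ y z hy hz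
      obtain ⟨n, hn, hna⟩ := P.frame.exists_act_TT hy hz
      refine ⟨n * g * n⁻¹, ?_, by rw [map_mul, map_mul, map_inv, hna]⟩
      exact (Subgroup.mem_normalizer_iff.1 (P.N0'_le_normalizer_K hN ⟨n.2, hn⟩) g).1 hg
  obtain ⟨u, v, hu, hv, huv, hmem⟩ := P.frame.QS'.hasTT hk' hT hne
  obtain ⟨ξ, hξ0, hξq, hξu, hξv⟩ := P.frame.QS'.exists_singular_perp_pair hk' hu hv huv
  change P.frame.qv u = 1 at hu
  change P.frame.qv v = 1 at hv
  change P.frame.qv ξ = 0 at hξq
  change P.frame.bf u v = 1 at huv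
  change P.frame.bf u ξ = 0 at hξu
  change P.frame.bf v ξ = 0 at hξv
  set yu := P.frame.rep u with hyu
  set yv := P.frame.rep v with hyv
  have hyu2 : (yu : G F P.U) * yu = -1 := P.frame.sq_of_qv_one hu
  have hyv2 : (yv : G F P.U) * yv = -1 := P.frame.sq_of_qv_one hv
  obtain ⟨w, hw⟩ : ∃ w, w = P.frame.w hyu2 hyv2 := ⟨_, rfl⟩
  have hwN : w ∈ P.frame.N0 := by rw [hw]; exact P.frame.w_mem hyu2 hyv2
  have hactw : ∀ e, P.frame.act ⟨w, hwN.1⟩ e = P.frame.QS'.T u (P.frame.QS'.T v e) := by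
    subst hw
    intro e
    rw [P.frame.act_w, hyu, hyv, P.frame.cls_rep, P.frame.cls_rep]
  -- `w` lies in `K`
  have hwK : w ∈ P.K M := by
    obtain ⟨g, hg, hga⟩ := hmem
    have hact : P.frame.act (g⁻¹ * ⟨w, hwN.1⟩) = 1 := by
      rw [map_mul, map_inv, hga]
      refine inv_mul_eq_one.2 (LinearEquiv.ext fun e => ?_)
      rw [hactw]
      rfl
    have hSp : (g : G F P.U)⁻¹ * w ∈ Sp P.B' :=
      (Sp P.B').mul_mem ((Sp P.B').inv_mem (P.K_le_Sp hM hg)) hwN.2
    have hSp' : ((g⁻¹ * (⟨w, hwN.1⟩ : P.frame.Nm) : P.frame.Nm) : G F P.U) ∈ Sp P.B' := by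
      rw [Subgroup.coe_mul, Subgroup.coe_inv]; exact hSp
    have h := P.frame.mem_R_of_act_eq_one hSp' hact
    rw [Subgroup.coe_mul, Subgroup.coe_inv] at h
    have hwR : (g : G F P.U)⁻¹ * w ∈ P.R' := h
    have hmul := (P.K M).mul_mem (show (g : G F P.U) ∈ P.K M from hg) (P.R'_le_K hN hwR)
    rwa [mul_inv_cancel_left] at hmul
  set g := P.ext w with hg_def
  have hgM : g ∈ M := hwK
  -- the involution of `R` above `ξ`
  obtain ⟨x', hx'C, hx'rc, hx'res⟩ := P.exists_rc ξ
  have hone : P.res ⟨-1, P.mem_C.2 (by simp)⟩ = -1 := P.res_neg_one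
  have hx'sq : (x' : G F V) * x' = 1 := by
    refine (S.sq_sign x' x'.2).resolve_right fun h => P.frame.one_ne_neg_one ?_
    have h1 : P.res ⟨(x' : G F V) * x', P.C.mul_mem hx'C hx'C⟩ = 1 := by
      rw [P.res_mk_mul hx'C hx'C, hx'res]
      exact P.frame.sq_of_qv_zero hξq
    exact h1.symm.trans ((congrArg P.res (Subtype.ext h)).trans hone)
  have hx'0 : S.cls x' ≠ 0 := fun h => hξ0 (by
    rw [← hx'rc, P.rc_congr hx'C (s := 1) P.C.one_mem (h.trans S.cls_one.symm)]
    rw [rc, P.frame.cls_eq_zero]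
    exact Or.inl (map_one P.res))
  obtain ⟨hx'1, hx'2⟩ := cls_eq_one_mem hx'0
  obtain ⟨P', hP'x, -⟩ := S.exists_blk (by omega) x'.2 hx'sq hx'1 hx'2
  have hξcomm : ∀ y : P.frame.E, P.frame.bf y ξ = 0 →
      (P.frame.rep y : G F P.U) * P.frame.rep ξ = P.frame.rep ξ * P.frame.rep y := fun y hy => by
    rw [← P.frame.bf_eq_zero, P.frame.cls_rep, P.frame.cls_rep, hy]
  have hwξ : w * (P.frame.rep ξ : G F P.U) = P.frame.rep ξ * w := by
    have h1 := Frame.tq_conj_of_comm S.two_ne hyv2 (hξcomm v hξv)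
    have h2 := Frame.tq_conj_of_comm S.two_ne hyu2 (hξcomm u hξu)
    rw [mul_inv_eq_iff_eq_mul] at h1 h2
    rw [hw, Frame.w]
    exact (Commute.mul_left (Frame.sc_comm _ _ _) (Commute.mul_left h2 h1)).eq
  have hgC : g ∈ P.C := P.ext_mem_C w
  have hgC' : g ∈ P'.C := by
    rw [P'.mem_C, hP'x]
    have hL : P.lift (P.res ⟨x', hx'C⟩) * g = g * P.lift (P.res ⟨x', hx'C⟩) := by
      rw [hg_def, lift_apply, hx'res, mul_assoc, ← (P.commute_ext w _).eq, ← mul_assoc, ← mul_assoc,
        ← map_mul, ← map_mul, hwξ]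
    have hxg : P.x * g = g * P.x := P.mem_C.1 hgC
    rcases P.R_cases x'.2 hx'C with e | e <;> rw [e]
    · exact hL
    · rw [mul_assoc, hxg, ← mul_assoc, hL, mul_assoc]
  -- an element moved by `g`
  obtain ⟨r, hrC, hrrc, hrres⟩ := P.exists_rc u
  have hrC' : (r : G F V) ∈ P'.C := by
    rw [P'.mem_C, hP'x]
    refine (S.comm_sign x'.2 r.2).resolve_right fun h => P.frame.ne_neg
      ((P.frame.rep u : G F P.U) * P.frame.rep ξ) ?_
    have h' : (⟨x', hx'C⟩ : P.C) * ⟨r, hrC⟩ =
        ⟨-1, P.mem_C.2 (by simp)⟩ * (⟨r, hrC⟩ * ⟨x', hx'C⟩) := Subtype.ext (by simpa using h)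
    have h'' := congrArg P.res h'
    rw [map_mul, map_mul, map_mul, hone, hx'res, hrres,
      show ∀ c : G F P.U, -1 * c = -c from fun c => Units.ext (by simp), ← hξcomm u hξu] at h''
    exact h''
  have hconj : w * (yu : G F P.U) * w⁻¹ ∈ P.R' := P.frame.conj_mem hwN.1 yu.2
  obtain ⟨s, hsC, hsR, hsres⟩ := P.mem_R'.1 hconj
  set A := g * (r : G F V) * g⁻¹ with hA
  have hAC' : A ∈ P'.C := P'.C.mul_mem (P'.C.mul_mem hgC' hrC') (P'.C.inv_mem hgC')
  have hAC : A ∈ P.C := P.C.mul_mem (P.C.mul_mem hgC hrC) (P.C.inv_mem hgC)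
  have hnorm := hproj P' g hgM hgC'
  have hrR' : P'.res ⟨r, hrC'⟩ ∈ P'.frame.R := P'.mem_R'.2 ⟨r, hrC', r.2, rfl⟩
  have hAres : P'.res ⟨A, hAC'⟩ ∈ P'.R' := by
    have h := P'.frame.conj_mem hnorm hrR'
    rwa [← map_inv, ← map_mul, ← map_mul] at h
  obtain ⟨t, htC', htR, htres⟩ := P'.mem_R'.1 hAres
  -- the action of `A`
  have hresA : P.res ⟨A, hAC⟩ = w * (yu : G F P.U) * w⁻¹ := by
    have e : (⟨A, hAC⟩ : P.C) = ⟨g, hgC⟩ * ⟨r, hrC⟩ * (⟨g, hgC⟩ : P.C)⁻¹ := rfl
    rw [e, map_mul, map_mul, map_inv, hrres, P.res_ext]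
  have hAval : ∀ z : V, (A : Module.End F V) z = (s : Module.End F V) (P.pr z : V) +
      (r : G F V).val (z - (P.pr z : V)) := by
    intro z
    have h1 : (A : Module.End F V) (P.pr z : V) = (s : Module.End F V) (P.pr z : V) := by
      have h := congrArg (fun f : G F P.U => (((f : Module.End F P.U) (P.pr z)) : V))
        (hresA.trans hsres.symm)
      simpa only [P.res_coe] using h
    have hfix : ∀ (h : G F P.U) (z : V), P.pr z = 0 → (P.ext h : Module.End F V) z = z := by
      intro h z hz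
      rw [P.ext_apply, hz, map_zero, Submodule.coe_zero, zero_add, sub_zero]
    have hz0 := P.pr_sub z
    have hr0 : P.pr ((r : G F V).val (z - (P.pr z : V))) = 0 := by
      refine Subtype.ext ?_
      rw [P.C_pr hrC, hz0, Submodule.coe_zero, map_zero]
    have h2 : (A : Module.End F V) (z - (P.pr z : V)) = (r : G F V).val (z - (P.pr z : V)) := by
      rw [hA, hg_def, ← map_inv, Units.val_mul, Units.val_mul, Module.End.mul_apply,
        Module.End.mul_apply, hfix _ _ hz0, hfix _ _ hr0]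
    rw [← h1, ← h2, ← map_add, add_sub_cancel]
  have htA : ∀ z : V, (t : Module.End F V) (z + (x' : G F V).val z) =
      (A : Module.End F V) (z + (x' : G F V).val z) := by
    intro z
    have hmem : z + (x' : G F V).val z ∈ P'.U := by
      rw [P'.mem_U, hP'x, map_add, ← Module.End.mul_apply, ← Units.val_mul, hx'sq, Units.val_one,
        Module.End.one_apply, add_comm]
    have h := congrArg (fun f : G F P'.U => (((f : Module.End F P'.U) ⟨_, hmem⟩) : V)) htres
    simpa only [P'.res_coe] using h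
  let s' : S.R := ⟨s, hsR⟩
  let t' : S.R := ⟨t, htR⟩
  let x₀ : S.R := ⟨P.x, P.x_mem⟩
  have hop : (2 : F) • (((t' : G F V) : Module.End F V) + ((t' * x' : S.R) : G F V).val) =
      ((s' : G F V).val + ((s' * x₀ : S.R) : G F V).val) +
      ((r : G F V).val - ((r * x₀ : S.R) : G F V).val) +
      (((s' * x' : S.R) : G F V).val + ((s' * (x₀ * x') : S.R) : G F V).val) +
      (((r * x' : S.R) : G F V).val - ((r * (x₀ * x') : S.R) : G F V).val) := by
    refine LinearMap.ext fun z => ?_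
    simp only [LinearMap.smul_apply, LinearMap.add_apply, LinearMap.sub_apply, Subgroup.coe_mul,
      Units.val_mul, Module.End.mul_apply, s', t', x₀]
    rw [← map_add, htA, hAval, pr_coe]
    simp only [map_add, map_sub, map_smul]
    match_scalars <;> field_simp [S.two_ne] <;> ring
  -- classes
  have hx₀ : S.cls x₀ ≠ 0 := P.x_cls_ne
  have hs'rc : P.rc (r := s') hsC = v := by
    have e : P.frame.act ⟨w, hwN.1⟩ u = v := by
      rw [hactw]
      rw [P.frame.QS'.T_apply_of_one (y := v) (a := u) (by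
          show P.frame.bf v u = 1
          rw [Frame.bf_apply, Frame.bv_comm]; exact huv),
        map_add, P.frame.QS'.T_apply_of_perp (P.frame.QS'.B_self u),
        P.frame.QS'.T_apply_of_one (y := u) (a := v) huv,
        add_comm v u, QS.add_cancel_left']
    conv_rhs => rw [← e, ← P.frame.cls_rep u, P.frame.act_cls hwN.1]
    exact congrArg P.frame.cls (Subtype.ext hsres)
  have hx₀C : (x₀ : G F V) ∈ P.C := P.x_mem_C
  have hx₀rc : P.rc (r := x₀) hx₀C = 0 := P.rc_x
  have huv0 : u + v ≠ 0 := fun h => by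
    have h' : u = v := by rw [← QS.add_cancel_right' u v, h, zero_add]
    rw [h'] at huv
    exact zero_ne_one ((P.frame.QS'.B_self v).symm.trans huv)
  have huvξ : u + v ≠ ξ := fun h => by
    rw [← h, map_add, huv, show P.frame.bf u u = 0 from P.frame.QS'.B_self u, zero_add] at hξu
    exact one_ne_zero hξu
  have hd : ∀ (q : S.R) (hq : (q : G F V) ∈ P.C), S.cls s' + S.cls r = S.cls q →
      u + v = P.rc hq := by
    intro q hq h
    rw [← S.cls_mul] at h
    rw [← P.rc_congr (r := s' * r) (P.C.mul_mem hsC hrC) hq h, P.rc_mul (r := s') (s := r) hsC hrC, hs'rc, hrrc, add_comm]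
  have d0 : (S.cls s') + (S.cls r) ≠ 0 := fun h => huv0 (by
    rw [hd 1 P.C.one_mem (h.trans S.cls_one.symm), rc, P.frame.cls_eq_zero]
    exact Or.inl (map_one P.res))
  have d1 : (S.cls s') + (S.cls r) ≠ (S.cls x₀) := fun h => huv0 (by rw [hd x₀ hx₀C h, hx₀rc])
  have d2 : (S.cls s') + (S.cls r) ≠ (S.cls x') := fun h => huvξ (by rw [hd x' hx'C h, hx'rc])
  have d3 : (S.cls s') + (S.cls r) ≠ (S.cls x₀) + (S.cls x') := fun h => huvξ (by
    rw [← S.cls_mul] at h
    rw [hd (x₀ * x') (P.C.mul_mem hx₀C hx'C) (by rw [← S.cls_mul]; exact h),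
      P.rc_mul hx₀C hx'C, hx₀rc, hx'rc, zero_add])
  have d4 : (S.cls x') ≠ (S.cls x₀) := fun h => hξ0 (by
    rw [← hx'rc, P.rc_congr hx'C hx₀C h, hx₀rc])
  have hsum : ∀ a b : S.E, a + (a + b) = b := QS.add_cancel_left'
  have hsame : ∀ a b c : S.E, a = b + c → a + b = c := fun a b c h => by
    rw [h, add_comm b c, QS.add_cancel_right']
  have key : ∀ q : S.R, (S.cls q = (S.cls s') ∨ S.cls q = (S.cls s') + (S.cls x₀)) →
      S.cls q = S.cls t' ∨ S.cls q = S.cls t' + (S.cls x') := by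
    intro q hq
    by_contra hcon
    push Not at hcon
    have h := congrArg (Frame.co (q : G F V)) hop
    simp only [map_smul, map_add, map_sub] at h
    have e : ∀ y : S.R, S.cls q ≠ S.cls y → Frame.co (q : G F V) ((y : G F V) : Module.End F V) = 0 :=
      fun y hy => S.co_ne hy
    rw [e t' hcon.1, e (t' * x') (by rw [S.cls_mul]; exact hcon.2)] at h
    rcases hq with hq | hq
    · rw [e (s' * x₀) (by rw [S.cls_mul, hq]; exact fun h => hx₀ (by simpa using h.symm)),
        e r (by rw [hq]; exact fun h => d0 (by rw [h, QS.add_self])),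
        e (r * x₀) (by rw [S.cls_mul, hq]; exact fun h => d1 (hsame _ _ _ h)),
        e (s' * x') (by rw [S.cls_mul, hq]; exact fun h => hx'0 (by simpa using h.symm)),
        e (s' * (x₀ * x')) (by
          rw [S.cls_mul, S.cls_mul, hq]
          exact fun h => d4 (by rw [← hsum (S.cls x₀) (S.cls x'), show (S.cls x₀) + (S.cls x') = 0 by simpa using h.symm, add_zero])),
        e (r * x') (by rw [S.cls_mul, hq]; exact fun h => d2 (hsame _ _ _ h)),
        e (r * (x₀ * x')) (by rw [S.cls_mul, S.cls_mul, hq]; exact fun h => d3 (hsame _ _ _ h))] at h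
      rcases S.cls_eq_iff.1 hq with e' | e'
      · rw [show (s' : G F V) = q from e', S.co_self] at h
        simp at h
      · rw [show (s' : G F V) = -q from e', S.co_neg_self] at h
        simp at h
    · have hq' : S.cls q = S.cls (s' * x₀) := by rw [S.cls_mul]; exact hq
      rw [e s' (by rw [hq]; exact fun h => hx₀ (by simpa using h)),
        e r (by rw [hq]; exact fun h => d1 (hsame _ _ _ (show (S.cls s') = (S.cls r) + (S.cls x₀) by
          rw [← h, QS.add_cancel_right']))),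
        e (r * x₀) (by rw [S.cls_mul, hq]; exact fun h => d0 (by
          rw [add_right_cancel h, QS.add_self])),
        e (s' * x') (by rw [S.cls_mul, hq]; exact fun h => d4 (add_left_cancel h).symm),
        e (s' * (x₀ * x')) (by
          rw [S.cls_mul, S.cls_mul, hq]
          exact fun h => hx'0 (by simpa using (add_left_cancel h).symm)),
        e (r * x') (by rw [S.cls_mul, hq]; exact fun h => d3 (hsame _ _ _ (show (S.cls s') = (S.cls r) + ((S.cls x₀) + (S.cls x')) by
          rw [← QS.add_cancel_right' (S.cls s') (S.cls x₀), h]; abel))),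
        e (r * (x₀ * x')) (by rw [S.cls_mul, S.cls_mul, hq]; exact fun h => d2 (hsame _ _ _
          (show (S.cls s') = (S.cls r) + (S.cls x') by
            rw [show (S.cls r) + ((S.cls x₀) + (S.cls x')) = ((S.cls r) + (S.cls x')) + (S.cls x₀) by abel] at h
            exact add_right_cancel h)))] at h
      rcases S.cls_eq_iff.1 hq' with e' | e'
      · rw [show ((s' * x₀ : S.R) : G F V) = q from e', S.co_self] at h
        simp at h
      · rw [show ((s' * x₀ : S.R) : G F V) = -q from e', S.co_neg_self] at h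
        simp at h
  rcases key s' (Or.inl rfl) with h1 | h1 <;>
    rcases key (s' * x₀) (Or.inr (S.cls_mul _ _)) with h2 | h2 <;>
    rw [S.cls_mul] at h2 <;> change (S.cls s') + (S.cls x₀) = _ at h2 <;> change (S.cls s') = _ at h1
  · exact hx₀ (add_left_cancel (a := (S.cls s')) (by rw [h2, ← h1, add_zero]))
  · exact d4 (add_left_cancel (a := (S.cls s')) (by rw [h2, h1]))
  · exact d4 (by
      have h3 : (S.cls s') + (S.cls x₀) + (S.cls x') = (S.cls s') := by rw [h2]; exact h1.symm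
      rw [add_assoc, add_eq_left] at h3
      rw [← hsum (S.cls x₀) (S.cls x'), h3, add_zero])
  · exact hx₀ (add_left_cancel (a := (S.cls s')) (by rw [h2, ← h1, add_zero]))

/-- In a proper overgroup the centraliser of a singular element lies in the normaliser. -/
theorem small (hk : 3 ≤ S.k) (hN : S.N0 ≤ M) (hM : M ≤ Sp B) (hne : ¬ Sp B ≤ M)
    (ih : ∀ P : Blk S, P.frame.IsMax) (hq : 3 ≤ Fintype.card F) : P.Small M := by
  have hKN : ∀ P : Blk S, P.K M ≤ P.frame.Nm := by
    intro P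
    by_contra hcon
    have hle : P.frame.N0 ⊔ P.K M ≤ Sp P.B' := sup_le inf_le_right (P.K_le_Sp hM)
    rcases ih P _ le_sup_left hle with h | h
    · exact hcon ((h ▸ le_sup_right : P.K M ≤ P.frame.N0).trans inf_le_left)
    refine hne (P.Sp_le_of_K hk hN ?_)
    have := P.frame.finite_dim
    obtain ⟨m, ⟨C⟩⟩ := exists_coord P.frame.alt P.frame.nondeg
    have hm : 2 ≤ m := by
      have h1 := C.e.finrank_eq
      rw [P.frame.dim, P.frame_k, Module.finrank_fintype_fun_eq_card, Fintype.card_sum,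
        Fintype.card_fin] at h1
      have h4 : 2 ^ 2 ≤ 2 ^ (S.k - 1) := Nat.pow_le_pow_right two_pos (by omega)
      omega
    have hnorm : Sp P.B' ≤ Subgroup.normalizer ((P.K M : Subgroup (G F P.U)) : Set (G F P.U)) :=
      h ▸ sup_le (P.N0'_le_normalizer_K hN) Subgroup.le_normalizer
    -- a non-scalar element of `R'`
    obtain ⟨e, he⟩ : ∃ e : P.frame.E, e ≠ 0 := by
      obtain ⟨y, -, hy⟩ := P.frame.QS'.exists_perp_q (show 2 ≤ P.frame.QS'.k by
        show 2 ≤ S.k - 1; omega) 0 1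
      exact ⟨y, P.frame.QS'.ne_zero_of_q hy⟩
    obtain ⟨r, rfl⟩ := P.frame.cls_surjective e
    refine C.Sp_le_of_normal hm hq hnorm (P.R'_le_K hN r.2) (P.frame.isom r r.2) fun c hc => ?_
    rcases P.frame.sign_of_scalar (P.frame.isom r r.2) hc with h' | h'
    · exact he (P.frame.cls_eq_zero.2 (Or.inl h'))
    · exact he (P.frame.cls_eq_zero.2 (Or.inr h'))
  have hproj : ∀ P : Blk S, ∀ g ∈ M, ∀ hg : g ∈ P.C, P.res ⟨g, hg⟩ ∈ P.frame.Nm := by
    intro P g hgM hg
    set h := P.res ⟨g, hg⟩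
    have hnK := P.res_mem_normalizer_K hg hgM
    have hconjK : ∀ r ∈ P.R', h * r * h⁻¹ ∈ P.K M := fun r hr =>
      (Subgroup.mem_normalizer_iff.1 hnK r).1 (P.R'_le_K hN hr)
    let W' : Subgroup P.frame.Nm := (P.R'.map (MulAut.conj h).toMonoidHom).subgroupOf P.frame.Nm
    let W := W'.map P.frame.act
    have hk' : 2 ≤ P.frame.QS'.k := by show 2 ≤ S.k - 1; omega
    have hT : P.frame.QS'.TNormal (P.Omega M) := by
      refine ⟨?_, ?_⟩
      · rintro _ ⟨g, -, rfl⟩ e
        exact P.frame.qv_act g e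
      · rintro _ ⟨g, hg, rfl⟩ y z hy hz
        obtain ⟨n, hn, hna⟩ := P.frame.exists_act_TT hy hz
        refine ⟨n * g * n⁻¹, ?_, by rw [map_mul, map_mul, map_inv, hna]⟩
        exact (Subgroup.mem_normalizer_iff.1 (P.N0'_le_normalizer_K hN ⟨n.2, hn⟩) g).1 hg
    have hR2 : IsPGroup 2 P.R' := fun r => ⟨2, by
      refine Subtype.ext ?_
      show (r : G F P.U) ^ (2 ^ 2) = 1
      rw [show (r : G F P.U) ^ (2 ^ 2) = ((r : G F P.U) * r) * ((r : G F P.U) * r) by
        simp only [show (2 ^ 2 : ℕ) = 4 from rfl, pow_succ, pow_zero, one_mul, mul_assoc]]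
      rcases P.frame.sq_sign r r.2 with e | e <;> rw [e] <;> refine Units.ext ?_ <;> simp⟩
    have hW2 : IsPGroup 2 W := IsPGroup.map (IsPGroup.comap_of_injective (hR2.map _) _
      Subtype.coe_injective) _
    have hWΩ : W ≤ P.Omega M := by
      refine Subgroup.map_mono fun x hx => ?_
      obtain ⟨r, hr, he⟩ := hx
      show (x : G F P.U) ∈ P.K M
      change h * r * h⁻¹ = (x : G F P.U) at he
      rw [← he]
      exact hconjK r hr
    have hWn : P.Omega M ≤ Subgroup.normalizer (W : Set (P.frame.E ≃ₗ[ZMod 2] P.frame.E)) := by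
      rintro _ ⟨k, hkK, rfl⟩
      refine Subgroup.le_normalizer_map _ ⟨k, ?_, rfl⟩
      have hcK : h⁻¹ * (k : G F P.U) * h ∈ P.K M := by
        have := (Subgroup.mem_normalizer_iff.1 (Subgroup.inv_mem _ hnK) k).1 hkK
        rwa [inv_inv] at this
      have hcN := hKN P hcK
      have hmem : ∀ x : P.frame.Nm, x ∈ W' ↔ h⁻¹ * (x : G F P.U) * h ∈ P.R' := by
        intro x
        constructor
        · rintro ⟨r, hr, he⟩
          change h * r * h⁻¹ = (x : G F P.U) at he
          rw [← he]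
          simpa [mul_assoc] using hr
        · intro hx
          exact ⟨_, hx, by show h * (h⁻¹ * (x : G F P.U) * h) * h⁻¹ = x; group⟩
      rw [SetLike.mem_coe, Subgroup.mem_normalizer_iff]
      intro x
      rw [hmem, hmem]
      show h⁻¹ * (x : G F P.U) * h ∈ P.frame.R ↔ h⁻¹ * ((k : G F P.U) * x * (k : G F P.U)⁻¹) * h ∈ P.frame.R
      refine (Subgroup.mem_normalizer_iff.1 hcN (h⁻¹ * (x : G F P.U) * h)).trans ?_
      show _ ∈ P.frame.R ↔ _
      refine iff_of_eq (congrArg (· ∈ P.frame.R) ?_)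
      group
    have hbot := P.frame.QS'.two_normal_eq_bot hk' hT hWΩ hWn hW2
    refine P.frame.mem_Nm_of_conj fun r hr => ?_
    have hK' := hconjK r hr
    refine P.frame.mem_R_of_act_eq_one (g := ⟨_, hKN P hK'⟩) (P.K_le_Sp hM hK') ?_
    have : P.frame.act ⟨_, hKN P hK'⟩ ∈ W := ⟨⟨_, hKN P hK'⟩, ⟨r, hr, rfl⟩, rfl⟩
    rwa [hbot, Subgroup.mem_bot] at this
  refine P.small_of_K_eq hN hM (le_antisymm (fun x hx => ?_) (P.R'_le_K hN)) (hproj P)
  refine P.frame.mem_R_of_act_eq_one (g := ⟨x, hKN P hx⟩) (P.K_le_Sp hM hx) ?_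
  have : P.frame.act ⟨x, hKN P hx⟩ ∈ P.Omega M := ⟨⟨x, hKN P hx⟩, hx, rfl⟩
  rwa [P.Omega_eq_bot hk hN hM (hKN P) hproj, Subgroup.mem_bot] at this

end Blk

end Cfsg.Agent.MaxSub.CSixSp
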