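import Cfsg.Agent.MaxSub.CSixSp.Act

/-!
Weak closure: if centralisers of singular elements of the frame normalise it, so do centralisers of
nonsingular ones, and conjugates of elements of the frame in the normaliser lie in the frame.
-/

set_option autoImplicit false
set_option linter.unusedSectionVars false
attribute [-instance] AddSubgroupClass.instZModModule

namespace Cfsg.Agent.MaxSub.CSixSp

variable {F : Type*} [Field F] {V : Type*} [AddCommGroup V] [Module F V]

/-- Equality up to sign. -/
def Pm (a b : G F V) : Prop := a = b ∨ a = -b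

namespace Pm

variable {a b c d : G F V}

lemma refl (a : G F V) : Pm a a := Or.inl rfl

lemma symm (h : Pm a b) : Pm b a := by
  rcases h with rfl | rfl
  · exact Or.inl rfl
  · exact Or.inr (neg_neg b).symm

lemma trans (h : Pm a b) (h' : Pm b c) : Pm a c := by
  rcases h with rfl | rfl <;> rcases h' with rfl | rfl
  · exact Or.inl rfl
  · exact Or.inr rfl
  · exact Or.inr rfl
  · exact Or.inl (neg_neg c)

lemma mul (h : Pm a b) (h' : Pm c d) : Pm (a * c) (b * d) := by
  rcases h with rfl | rfl <;> rcases h' with rfl | rfl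
  · exact Or.inl rfl
  · exact Or.inr (mul_neg _ _)
  · exact Or.inr (neg_mul _ _)
  · exact Or.inl (neg_mul_neg _ _)

lemma inv (h : Pm a b) : Pm a⁻¹ b⁻¹ := by
  rcases h with rfl | rfl
  · exact Or.inl rfl
  · exact Or.inr inv_neg

lemma pow (h : Pm a b) (n : ℕ) : Pm (a ^ n) (b ^ n) := by
  induction n with
  | zero => exact Or.inl (by rw [pow_zero, pow_zero])
  | succ n ih => rw [pow_succ, pow_succ]; exact ih.mul h

lemma mem {H : Subgroup (G F V)} (hH : (-1 : G F V) ∈ H) (h : Pm a b) (hb : b ∈ H) : a ∈ H := by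
  rcases h with rfl | rfl
  · exact hb
  · simpa using H.mul_mem hH hb

lemma sq (h : Pm a b) : a * a = b * b := by
  rcases h with rfl | rfl
  · rfl
  · exact neg_mul_neg b b

lemma conj (h : Pm a b) (g : G F V) : Pm (g * a * g⁻¹) (g * b * g⁻¹) :=
  ((Pm.refl g).mul h).mul (Pm.refl g⁻¹)

lemma comm_of_conj {g : G F V} (h : Pm (g * a * g⁻¹) a) : Pm (a * g * a⁻¹) g := by
  rcases h with h | h
  · left
    rw [mul_inv_eq_iff_eq_mul] at h
    rw [← h, mul_inv_cancel_right]
  · right
    rw [mul_inv_eq_iff_eq_mul, neg_mul] at h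
    rw [show a * g = -(g * a) by rw [h, neg_neg], neg_mul, mul_inv_cancel_right]

end Pm

namespace Frame

variable {B : LinearMap.BilinForm F V} (S : Frame B)

/-- Hypotheses on an overgroup of the normaliser. -/
structure Over (M : Subgroup (G F V)) : Prop where
  hk : 3 ≤ S.k
  hN : S.N0 ≤ M
  hM : M ≤ Sp B
  single : ∀ r ∈ S.R, r * r = 1 → r ≠ 1 → r ≠ -1 → ∀ g ∈ M, r * g = g * r → g ∈ S.N0

lemma neg_one_mem_N0 : (-1 : G F V) ∈ S.N0 := S.R_le_N0 S.neg_one

include S in
lemma ne_neg' {a : G F V} (h : Pm a 1) : a * a = 1 := by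
  rw [h.sq, one_mul]

/-- The symmetric of `1 + y` under conjugation. -/
lemma conj_tq {y y' : G F V} (hy : y * y = -1) (hy' : y' * y' = -1) (h : G F V)
    (he : h * y * h⁻¹ = y') :
    h * tq S.two_ne y hy * h⁻¹ = tq S.two_ne y' hy' := by
  refine Units.ext ?_
  show (h : Module.End F V) * (1 + (y : Module.End F V)) * (h⁻¹ : G F V) = 1 + (y' : Module.End F V)
  rw [mul_add, mul_one, add_mul, Units.mul_inv, ← he, Units.val_mul, Units.val_mul]

variable {S} {M : Subgroup (G F V)} (O : S.Over M)

namespace Over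

include O in
lemma single_pm {r : G F V} (hr : r ∈ S.R) (hsq : r * r = 1) (h1 : r ≠ 1) (h2 : r ≠ -1)
    {g : G F V} (hg : g ∈ M) (h : Pm (g * r * g⁻¹) r) : g ∈ S.N0 := by
  rcases h with h | h <;> rw [mul_inv_eq_iff_eq_mul] at h
  · exact O.single r hr hsq h1 h2 g hg h.symm
  · have h0 : S.cls ⟨r, hr⟩ ≠ 0 := fun e => (S.cls_eq_zero.1 e).elim h1 h2
    obtain ⟨x, hx⟩ := S.QS'.exists_B_eq_one h0
    obtain ⟨a, rfl⟩ := S.cls_surjective x
    have ha : r * a = -((a : G F V) * r) := (S.bf_eq_one (a := ⟨r, hr⟩)).1 hx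
    have haN := S.R_le_N0 a.2
    have := O.single r hr hsq h1 h2 (a * g) (M.mul_mem (O.hN haN) hg) (by
      rw [← mul_assoc, ha, neg_mul, mul_assoc, mul_assoc, h, neg_mul, mul_neg])
    simpa using S.N0.mul_mem (S.N0.inv_mem haN) this

/-- A shared element with small centraliser. -/
lemma mem_of_common (O : S.Over M) {g : G F V} (hg : g ∈ M) {r : G F V} (hr : r ∈ S.R) (h1 : r ≠ 1)
    (h2 : r ≠ -1) (hg' : g⁻¹ * r * g ∈ S.R)
    (hC : ∀ k ∈ M, Pm (k * r * k⁻¹) r → k ∈ S.N0) : g ∈ S.N0 := by
  set r0 : S.R := ⟨g⁻¹ * r * g, hg'⟩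
  have h0 : S.cls r0 ≠ 0 := fun e => by
    rcases S.cls_eq_zero.1 e with e | e
    · exact h1 (by
        have := congrArg (fun t => g * t * g⁻¹) e
        simpa [r0, mul_assoc] using this)
    · exact h2 (by
        have := congrArg (fun t => g * t * g⁻¹) e
        simpa [r0, mul_assoc] using this)
  have hr0 : S.cls ⟨r, hr⟩ ≠ 0 := fun e => (S.cls_eq_zero.1 e).elim h1 h2
  have hk2 : 2 ≤ S.k := le_trans (by norm_num) O.hk
  have hq : S.qv (S.cls r0) = S.qv (S.cls ⟨r, hr⟩) := by
    rw [S.qv_cls, S.qv_cls, sgn, sgn]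
    classical
    refine if_congr ?_ rfl rfl
    show g⁻¹ * r * g * (g⁻¹ * r * g) = 1 ↔ r * r = 1
    rw [show g⁻¹ * r * g * (g⁻¹ * r * g) = g⁻¹ * (r * r) * g by group]
    constructor
    · intro e
      have := congrArg (fun t => g * t * g⁻¹) e
      simpa [mul_assoc] using this
    · intro e; rw [e, mul_one, inv_mul_cancel]
  obtain ⟨n, hn, hn'⟩ := S.exists_conj hk2 h0 hr0 hq
  have hgn : g * n⁻¹ ∈ S.N0 := by
    refine hC _ (M.mul_mem hg (M.inv_mem (O.hN hn))) ?_
    have h' : Pm r (n * (g⁻¹ * r * g) * n⁻¹) := Pm.symm hn'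
    have h'' := h'.conj (g * n⁻¹)
    refine h''.trans (Or.inl ?_)
    group
  simpa using S.N0.mul_mem hgn hn

include O in
lemma mem_of_common_single {g : G F V} (hg : g ∈ M) {r : G F V} (hr : r ∈ S.R) (hsq : r * r = 1)
    (h1 : r ≠ 1) (h2 : r ≠ -1) (hg' : g⁻¹ * r * g ∈ S.R) : g ∈ S.N0 :=
  O.mem_of_common hg hr h1 h2 hg' fun _ hk h => O.single_pm hr hsq h1 h2 hk h

include O in
/-- A singular element of another conjugate frame, in the normaliser and commuting with a common
nonsingular element, lies in the frame. -/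
lemma swperp {h : G F V} (hh : h ∈ M) {y : G F V} (hyR : y ∈ S.R) (hy : y * y = -1)
    (hyh : h⁻¹ * y * h ∈ S.R) {s : G F V} (hsN : s ∈ S.N0) (hs : s * s = 1)
    (hsh : h⁻¹ * s * h ∈ S.R) (hsy : s * y = y * s) : s ∈ S.R := by
  set φ := S.act ⟨s, hsN.1⟩ with hφ
  have hk2 : 2 ≤ S.QS'.k := le_trans (by norm_num) O.hk
  have hsinv : s⁻¹ = s := inv_eq_of_mul_eq_one_right hs
  set η := S.cls ⟨y, hyR⟩ with hη
  have hηq : S.qv η = 1 := by rw [hη, S.qv_cls, S.sgn_eq_one hyR]; exact hy
  have hφη : φ η = η := by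
    rw [hη, hφ, S.act_cls]
    exact congrArg S.cls (Subtype.ext (by show s * y * s⁻¹ = y; rw [hsy, mul_inv_cancel_right]))
  have hφφ : ∀ e, φ (φ e) = e := fun e => by
    have : S.act (⟨s, hsN.1⟩ * ⟨s, hsN.1⟩) = 1 := by
      rw [show (⟨s, hsN.1⟩ * ⟨s, hsN.1⟩ : S.Nm) = 1 from Subtype.ext hs, map_one]
    rw [map_mul] at this
    exact congrArg (fun f : S.E ≃ₗ[ZMod 2] S.E => f e) this
  by_cases hmoved : ∃ e, S.bf η e = 0 ∧ φ e ≠ e
  · exfalso
    obtain ⟨e₀, he₀, hne₀⟩ := hmoved
    -- the element `w`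
    have hsy2 : s * y * (s * y) = -1 := by
      rw [show s * y * (s * y) = s * (y * s) * y by simp only [mul_assoc], ← hsy,
        show s * (s * y) * y = (s * s) * (y * y) by simp only [mul_assoc], hs, one_mul, hy]
    set a : S.R := ⟨h⁻¹ * (s * y) * h, by
      rw [show h⁻¹ * (s * y) * h = (h⁻¹ * s * h) * (h⁻¹ * y * h) by group]
      exact S.R.mul_mem hsh hyh⟩
    set b : S.R := ⟨h⁻¹ * y * h, hyh⟩
    have ha : (a : G F V) * a = -1 := by
      show h⁻¹ * (s * y) * h * (h⁻¹ * (s * y) * h) = -1
      rw [show h⁻¹ * (s * y) * h * (h⁻¹ * (s * y) * h) = h⁻¹ * (s * y * (s * y)) * h by group, hsy2]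
      simp
    have hb : (b : G F V) * b = -1 := by
      show h⁻¹ * y * h * (h⁻¹ * y * h) = -1
      rw [show h⁻¹ * y * h * (h⁻¹ * y * h) = h⁻¹ * (y * y) * h by group, hy]
      simp
    set T₁ := tq S.two_ne (s * y) hsy2 with hT₁
    set T₂ := tq S.two_ne y hy with hT₂
    set w := sc (2 : F)⁻¹ (inv_ne_zero S.two_ne) * (T₁ * T₂) with hw
    have hwM : w ∈ M := by
      have h0 := M.mul_mem (M.mul_mem hh (O.hN (S.w_mem ha hb))) (M.inv_mem hh)
      have e1 : h * tq S.two_ne (a : G F V) ha * h⁻¹ = T₁ :=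
        S.conj_tq ha hsy2 h (by show h * (h⁻¹ * (s * y) * h) * h⁻¹ = s * y; group)
      have e2 : h * tq S.two_ne (b : G F V) hb * h⁻¹ = T₂ :=
        S.conj_tq hb hy h (by show h * (h⁻¹ * y * h) * h⁻¹ = y; group)
      have e : h * S.w ha hb * h⁻¹ = w := by
        rw [hw, ← e1, ← e2, Frame.w, show h * (sc (2 : F)⁻¹ (inv_ne_zero S.two_ne) *
          (tq S.two_ne (a : G F V) ha * tq S.two_ne (b : G F V) hb)) * h⁻¹ =
            (h * sc (2 : F)⁻¹ (inv_ne_zero S.two_ne) * h⁻¹) * ((h * tq S.two_ne (a : G F V) ha * h⁻¹) *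
              (h * tq S.two_ne (b : G F V) hb * h⁻¹)) by group, ← sc_comm, mul_inv_cancel_right]
      rwa [e] at h0
    -- a singular element commuting with `s` and `y`
    let K2 : Submodule (ZMod 2) S.E :=
      { carrier := {e | s * (S.rep e : G F V) = S.rep e * s ∧ S.bf η e = 0}
        add_mem' := by
          rintro e f ⟨he, he'⟩ ⟨hf, hf'⟩
          refine ⟨?_, by rw [map_add, he', hf', add_zero]⟩
          have hc : S.cls (S.rep e * S.rep f) = S.cls (S.rep (e + f)) := by
            rw [S.cls_mul, S.cls_rep, S.cls_rep, S.cls_rep]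
          have hef : s * ((S.rep e : G F V) * S.rep f) = (S.rep e : G F V) * S.rep f * s := by
            rw [← mul_assoc, he, mul_assoc, hf, mul_assoc]
          rcases S.cls_eq_iff.1 hc with e' | e' <;> rw [e', Subgroup.coe_mul]
          · exact hef
          · rw [mul_neg, neg_mul, hef]
        zero_mem' := by
          refine ⟨?_, map_zero _⟩
          rcases S.cls_eq_zero.1 (S.cls_rep 0) with e' | e' <;> rw [e'] <;> simp
        smul_mem' := by
          rintro c e ⟨he, he'⟩
          rcases zmod2_cases c with rfl | rfl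
          · rw [zero_smul]
            refine ⟨?_, map_zero _⟩
            rcases S.cls_eq_zero.1 (S.cls_rep 0) with e' | e' <;> rw [e'] <;> simp
          · rw [one_smul]; exact ⟨he, he'⟩ }
    let ψ : S.E →ₗ[ZMod 2] S.E := φ.toLinearMap + LinearMap.id
    set K1 := LinearMap.ker ψ ⊓ S.QS'.perp η
    have hψ : ∀ e, e ∈ LinearMap.ker ψ ↔ φ e = e := fun e => by
      rw [LinearMap.mem_ker]
      show φ e + e = 0 ↔ φ e = e
      constructor
      · intro e'; rw [← QS.add_cancel_right' (φ e) e, e', zero_add]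
      · intro e'; rw [e', QS.add_self]
    have hrange : LinearMap.range ψ ≤ K1 := by
      rintro _ ⟨e, rfl⟩
      refine ⟨(hψ _).2 ?_, ?_⟩
      · show φ (φ e + e) = φ e + e
        rw [map_add, hφφ, add_comm]
      · rw [SetLike.mem_coe, S.QS'.mem_perp]
        show S.bf η (φ e + e) = 0
        rw [map_add]
        nth_rewrite 1 [← hφη]
        rw [show S.bf (φ η) (φ e) = S.bf η e from S.QS'.B_of_iso (S.qv_act _) η e,
          CharTwo.add_self_eq_zero]
    have hK1 : S.k ≤ Module.finrank (ZMod 2) K1 := by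
      have h1 := ψ.finrank_range_add_finrank_ker
      have h2 := Submodule.finrank_mono hrange
      have h3 := S.QS'.finrank_inf_perp (LinearMap.ker ψ) η
      rw [S.finrank_E] at h1
      change _ ≤ Module.finrank (ZMod 2) K1 + 1 at h3
      omega
    have hK2 : Module.finrank (ZMod 2) K1 ≤ Module.finrank (ZMod 2) K2 + 1 := by
      by_cases hall : K1 ≤ K2
      · exact le_add_right (Submodule.finrank_mono hall)
      obtain ⟨f₀, hf₀, hf₀'⟩ := SetLike.not_le_iff_exists.1 hall
      have hle : K1 ≤ K2 ⊔ Submodule.span (ZMod 2) {f₀} := by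
        intro f hf
        by_cases hf' : f ∈ K2
        · exact Submodule.mem_sup_left hf'
        have anti : ∀ e ∈ K1, e ∉ K2 → s * (S.rep e : G F V) = -(S.rep e * s) := by
          intro e he he'
          have hfix := (hψ e).1 he.1
          conv_lhs at hfix => rw [← S.cls_rep e]
          conv_rhs at hfix => rw [← S.cls_rep e]
          rw [hφ, S.act_cls, S.cls_eq_iff] at hfix
          rcases hfix with e' | e'
          · exact absurd ⟨(eq_mul_inv_iff_mul_eq.1 e').symm, S.QS'.mem_perp.1 he.2⟩ he'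
          · change (S.rep e : G F V) = -(s * S.rep e * s⁻¹) at e'
            rw [← neg_eq_iff_eq_neg, eq_mul_inv_iff_mul_eq, neg_mul] at e'
            exact e'.symm
        have hsum : f + f₀ ∈ K2 := by
          refine ⟨?_, ?_⟩
          · have hc : S.cls (S.rep f * S.rep f₀) = S.cls (S.rep (f + f₀)) := by
              rw [S.cls_mul, S.cls_rep, S.cls_rep, S.cls_rep]
            have hef : s * ((S.rep f : G F V) * S.rep f₀) = (S.rep f : G F V) * S.rep f₀ * s := by
              rw [← mul_assoc, anti f hf hf', neg_mul, mul_assoc, anti f₀ hf₀ hf₀', mul_neg, neg_neg,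
                mul_assoc]
            rcases S.cls_eq_iff.1 hc with e' | e' <;> rw [e', Subgroup.coe_mul]
            · exact hef
            · rw [mul_neg, neg_mul, hef]
          · have h1 : S.bf η f = 0 := S.QS'.mem_perp.1 hf.2
            have h2 : S.bf η f₀ = 0 := S.QS'.mem_perp.1 hf₀.2
            rw [map_add, h1, h2, add_zero]
        rw [← QS.add_cancel_right' f f₀]
        exact Submodule.add_mem _ (Submodule.mem_sup_left hsum)
          (Submodule.mem_sup_right (Submodule.mem_span_singleton_self _))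
      have h1 := (Submodule.finrank_mono hle).trans
        (Submodule.finrank_add_le_finrank_add_finrank K2 _)
      have h2 : Module.finrank (ZMod 2) (Submodule.span (ZMod 2) {f₀}) ≤ 1 := by
        simpa using finrank_span_le_card ({f₀} : Set S.E)
      omega
    have hk := O.hk
    obtain ⟨e, he, he0, heη⟩ := QS.exists_mem_ne (U := K2) (by omega) η
    have hηK2 : η ∈ K2 := by
      refine ⟨?_, S.QS'.B_self η⟩
      rcases S.cls_eq_iff.1 (S.cls_rep η) with e' | e'
      · rw [show (S.rep η : G F V) = y from e'.symm, hsy]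
      · rw [show (S.rep η : G F V) = -y by rw [show y = _ from e', neg_neg], mul_neg, neg_mul, hsy]
    obtain ⟨f, hf, hf0, hfq⟩ : ∃ f ∈ K2, f ≠ 0 ∧ S.qv f = 0 := by
      rcases zmod2_cases (S.qv e) with hq | hq
      · exact ⟨e, he, he0, hq⟩
      · refine ⟨e + η, K2.add_mem he hηK2, fun h0 => heη ?_, ?_⟩
        · rw [← QS.add_cancel_right' e η, h0, zero_add]
        · rw [S.qv_add, hq, hηq, show S.bf e η = 0 from (S.QS'.B_comm e η).trans he.2]
          decide
    have hry : (y : G F V) * S.rep f = S.rep f * y := by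
      have := hf.2
      rw [hη, ← S.cls_rep f] at this
      exact S.bf_eq_zero.1 this
    have hrw : (S.rep f : G F V) * w = w * S.rep f := by
      have c1 : Commute T₁ (S.rep f : G F V) := mul_inv_eq_iff_eq_mul.1
        (tq_conj_of_comm S.two_ne hsy2 (by rw [mul_assoc, hry, ← mul_assoc, hf.1, mul_assoc]))
      have c2 : Commute T₂ (S.rep f : G F V) :=
        mul_inv_eq_iff_eq_mul.1 (tq_conj_of_comm S.two_ne hy hry)
      exact (Commute.mul_left (sc_comm _ _ _) (Commute.mul_left c1 c2)).eq.symm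
    have hf' : S.cls (S.rep f) ≠ 0 := by rw [S.cls_rep]; exact hf0
    have hwN : w ∈ S.N0 := O.single _ (S.rep f).2 (S.sq_of_qv_zero hfq)
      (fun e' => hf' (S.cls_eq_zero.2 (Or.inl e'))) (fun e' => hf' (S.cls_eq_zero.2 (Or.inr e')))
      w hwM hrw
    -- the image of a moved element is not monomial
    set x := S.rep e₀
    have hxy : y * (x : G F V) = x * y := by
      have := he₀
      rw [hη, ← S.cls_rep e₀] at this
      exact S.bf_eq_zero.1 this
    set x' : S.R := ⟨s * x * s⁻¹, S.conj_mem hsN.1 x.2⟩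
    have hxx' : S.cls x' ≠ S.cls x := by
      rw [← S.act_cls hsN.1, S.cls_rep]; exact hne₀
    set A := w * (x : G F V) * w⁻¹ with hA
    have hAR : A ∈ S.R := S.conj_mem hwN.1 x.2
    have hAT : A = T₁ * x * T₁⁻¹ := by
      have c2 : T₂ * (x : G F V) * T₂⁻¹ = x := tq_conj_of_comm S.two_ne hy hxy
      rw [hA, hw, show sc (2 : F)⁻¹ (inv_ne_zero S.two_ne) * (T₁ * T₂) * (x : G F V) *
        (sc (2 : F)⁻¹ (inv_ne_zero S.two_ne) * (T₁ * T₂))⁻¹ =
        sc (2 : F)⁻¹ (inv_ne_zero S.two_ne) * (T₁ * (T₂ * (x : G F V) * T₂⁻¹) * T₁⁻¹) *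
          (sc (2 : F)⁻¹ (inv_ne_zero S.two_ne))⁻¹ by group, c2, sc_comm, mul_inv_cancel_right]
    set sv : Module.End F V := (s : Module.End F V)
    set yv : Module.End F V := (y : Module.End F V)
    set xv : Module.End F V := ((x : G F V) : Module.End F V)
    have hsy' : sv * yv = yv * sv := by simpa using congrArg Units.val hsy
    have hxy' : yv * xv = xv * yv := by simpa using congrArg Units.val hxy
    have hyy' : yv * yv = -1 := by simpa using congrArg Units.val hy
    have hx'v : (((x' : S.R) : G F V) : Module.End F V) = sv * xv * sv := by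
      show ((s * (x : G F V) * s⁻¹ : G F V) : Module.End F V) = _
      rw [hsinv, Units.val_mul, Units.val_mul]
    have hprod : sv * yv * xv * (sv * yv) = -(sv * xv * sv) := by
      calc sv * yv * xv * (sv * yv) = sv * (yv * xv) * (yv * sv) := by
            rw [← hsy']; simp only [mul_assoc]
        _ = sv * xv * ((yv * yv) * sv) := by rw [hxy']; simp only [mul_assoc]
        _ = -(sv * xv * sv) := by rw [hyy', neg_one_mul, mul_neg]
    have hAval : (2 : F) • (A : Module.End F V) =
        xv + (sv * xv * yv - xv * sv * yv) + sv * xv * sv := by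
      rw [hAT]
      show (2 : F) • ((1 + sv * yv) * xv * ((2 : F)⁻¹ • (1 - sv * yv))) = _
      rw [mul_smul_comm, smul_smul, mul_inv_cancel₀ S.two_ne, one_smul, mul_sub, mul_one, add_mul,
        one_mul, add_mul, hprod, mul_assoc sv yv xv, hxy', ← mul_assoc, ← mul_assoc]
      abel
    have := S.finite_dim
    have hmid : ∀ q : S.R, (q = x ∨ q = x') →
        co (q : G F V) (sv * xv * yv - xv * sv * yv) = 0 := by
      intro q hq
      rw [map_sub, sub_eq_zero, co_apply, co_apply]
      congr 1
      set T := LinearMap.trace F V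
      set xi : Module.End F V := (((x : G F V)⁻¹ : G F V) : Module.End F V)
      have hxix : xi * xv = 1 := Units.inv_mul _
      have hxxi : xv * xi = 1 := Units.mul_inv _
      have hss : sv * sv = 1 := by simpa using congrArg Units.val hs
      have t1 : T (xi * (sv * xv * yv)) = T (sv * yv) := by
        rw [show sv * xv * yv = sv * yv * xv by rw [mul_assoc, ← hxy', ← mul_assoc],
          LinearMap.trace_mul_comm, mul_assoc, hxxi, mul_one]
      rcases hq with rfl | rfl
      · rw [t1, show xv * sv * yv = xv * (sv * yv) from mul_assoc _ _ _, ← mul_assoc, hxix, one_mul]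
      · have hqi : ((((x' : S.R) : G F V)⁻¹ : G F V) : Module.End F V) = sv * xi * sv := by
          show (((s * (x : G F V) * s⁻¹)⁻¹ : G F V) : Module.End F V) = _
          rw [show (s * (x : G F V) * s⁻¹)⁻¹ = s * (x : G F V)⁻¹ * s⁻¹ by group, hsinv,
            Units.val_mul, Units.val_mul]
        rw [hqi]
        have a1 : sv * xi * sv * (sv * xv * yv) = sv * yv := by
          calc sv * xi * sv * (sv * xv * yv) = sv * xi * (sv * sv) * xv * yv := by
                simp only [mul_assoc]
            _ = sv * yv := by rw [hss, mul_one, mul_assoc sv xi xv, hxix, mul_one]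
        have a2 : T (sv * xi * sv * (xv * sv * yv)) = T (sv * yv) := by
          rw [show sv * xi * sv * (xv * sv * yv) = sv * (xi * sv * xv * sv * yv) by
            simp only [mul_assoc], LinearMap.trace_mul_comm,
            show xi * sv * xv * sv * yv * sv = xi * (sv * xv * yv) by
              calc xi * sv * xv * sv * yv * sv = xi * (sv * xv * (sv * (yv * sv))) := by
                    simp only [mul_assoc]
                _ = xi * (sv * xv * yv) := by rw [← hsy', ← mul_assoc sv sv, hss, one_mul],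
            t1]
        rw [a1, a2]
    have hco : ∀ q : S.R, (q = x ∨ q = x') → co (q : G F V) (A : Module.End F V) ≠ 0 := by
      intro q hq h0
      have h1 := congrArg (co (q : G F V)) hAval
      rw [map_smul, h0, smul_zero, map_add, map_add, hmid q hq, add_zero, ← hx'v] at h1
      rcases hq with rfl | rfl
      · rw [S.co_self, S.co_eq_zero x.2 x'.2 (fun e' => hxx' (congrArg S.cls (Subtype.ext e')))
          (fun e' => hxx' (S.cls_eq_iff.2 (Or.inr (by rw [e', neg_neg])))), add_zero] at h1
        exact zero_ne_one h1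
      · rw [S.co_self, S.co_eq_zero x'.2 x.2 (fun e' => hxx' (congrArg S.cls (Subtype.ext e')).symm)
          (fun e' => hxx' (S.cls_eq_iff.2 (Or.inr e'))), zero_add] at h1
        exact zero_ne_one h1
    have hmono : ∀ q : S.R, co (q : G F V) (A : Module.End F V) ≠ 0 → S.cls q = S.cls ⟨A, hAR⟩ := by
      intro q hq
      by_contra hne
      exact hq (S.co_eq_zero q.2 hAR (fun e' => hne (S.cls_eq_iff.2 (Or.inl e')))
        (fun e' => hne (S.cls_eq_iff.2 (Or.inr e'))))
    exact hxx' ((hmono x' (hco x' (Or.inr rfl))).trans (hmono x (hco x (Or.inl rfl))).symm)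
  · push Not at hmoved
    refine S.mem_R_of_act_eq_one (g := ⟨s, hsN.1⟩) hsN.2 (LinearEquiv.ext fun e => ?_)
    show φ e = e
    by_contra hne
    have hd0 : φ e + e ≠ 0 := fun h => hne (by rw [← QS.add_cancel_right' (φ e) e, h, zero_add])
    have hdperp : ∀ f, S.bf η f = 0 → S.bf (φ e + e) f = 0 := by
      intro f hf
      rw [map_add, LinearMap.add_apply]
      nth_rewrite 1 [← hmoved f hf]
      rw [show S.bf (φ e) (φ f) = S.bf e f from S.QS'.B_of_iso (S.qv_act _) e f,
        CharTwo.add_self_eq_zero]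
    have hd : φ e + e = η := by
      by_contra hd
      obtain ⟨c, hc1, hc2⟩ := S.QS'.exists_vals hd0 (S.QS'.ne_zero_of_q hηq) hd 1 0
      exact one_ne_zero (hc1.symm.trans (hdperp c hc2))
    set x := S.rep e
    have hfe : S.cls ⟨s * x * s⁻¹, S.conj_mem hsN.1 x.2⟩ = S.cls (⟨y, hyR⟩ * x) := by
      rw [← S.act_cls hsN.1, S.cls_mul, S.cls_rep, ← hη, ← hd, QS.add_cancel_right']
    rw [S.cls_eq_iff] at hfe
    have hxeq : Pm (s * (x : G F V) * s) (y * x) := by
      have : Pm (y * (x : G F V)) (s * x * s⁻¹) := hfe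
      rw [hsinv] at this
      exact this.symm
    have hfin : (x : G F V) = -x := by
      have hx : (x : G F V) = s * (s * x * s) * s := by
        rw [show s * (s * x * s) * s = (s * s) * x * (s * s) by simp only [mul_assoc], hs,
          one_mul, mul_one]
      rcases hxeq with e' | e'
      · calc (x : G F V) = s * (s * x * s) * s := hx
          _ = s * (y * x) * s := by rw [e']
          _ = y * (s * x * s) := by rw [← mul_assoc, hsy]; simp only [mul_assoc]
          _ = -x := by rw [e', ← mul_assoc, hy, neg_one_mul]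
      · calc (x : G F V) = s * (s * x * s) * s := hx
          _ = s * (-(y * x)) * s := by rw [e']
          _ = -(y * (s * x * s)) := by
                rw [mul_neg, neg_mul, ← mul_assoc, hsy]; simp only [mul_assoc]
          _ = -x := by rw [e', mul_neg, neg_neg, ← mul_assoc, hy, neg_one_mul]
    exact S.ne_neg _ hfin

end Over

end Frame

end Cfsg.Agent.MaxSub.CSixSp
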